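import Mathlib

/-!
A trace-map lemma for overgroups (a special case of Green correspondence, elementary).

`M ≤ G`, `E ≤ M` a `p`-subgroup such that no nontrivial element of `E` is in a conjugate `g M g⁻¹`,
`g ∉ M`. `X` an elementary abelian `p`-group on which `G` acts and `∑_{y ∈ E} y x = 0` for all `x`.
If `π` is an `M`-equivariant projection of `X` and `π X` is generated by the `M`-translates of its
`E`-fixed points, then `π X` is `G`-invariant.
-/

set_option autoImplicit false

namespace Cfsg.Agent.H923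

open scoped Classical in
/-- **The trace lemma.** -/
theorem green {G X : Type*} [Group G] [Finite G] [AddCommGroup X] [Finite X] {p : ℕ}
    [Fact p.Prime] (ρ : G →* AddMonoid.End X) (M E : Subgroup G) [Fintype E]
    (hE : IsPGroup p E) (hp : ∀ x : X, p • x = 0)
    (h1 : ∀ g : G, g ∉ M → ∀ y ∈ E, g⁻¹ * y * g ∈ M → y = 1) (hEM : E ≤ M)
    (h0 : ∀ x : X, ∑ y : E, ρ (y : G) x = 0)
    (π : X →+ X) (hπ : ∀ x, π (π x) = π x) (hπM : ∀ m ∈ M, ∀ x, π (ρ m x) = ρ m (π x))
    (h2 : ∀ x, π x ∈ AddSubgroup.closure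
      {z | ∃ m ∈ M, ∃ x, π x = x ∧ (∀ y ∈ E, ρ y x = x) ∧ z = ρ m x})
    (g : G) (x : X) : π (ρ g (π x)) = ρ g (π x) := by
  have := Fintype.ofFinite (G ⧸ M)
  have hmul : ∀ (a b : G) (x : X), ρ (a * b) x = ρ a (ρ b x) := by
    intro a b x
    rw [map_mul]
    rfl
  have hone : ∀ x : X, ρ 1 x = x := by
    intro x
    rw [map_one]
    rfl
  have hinv : ∀ (a : G) (x : X), ρ a (ρ a⁻¹ x) = x := by
    intro a x
    rw [← hmul, mul_inv_cancel, hone]
  have hinv' : ∀ (a : G) (x : X), ρ a⁻¹ (ρ a x) = x := by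
    intro a x
    rw [← hmul, inv_mul_cancel, hone]
  -- the summand
  let φ : X → G ⧸ M → X := fun x => Quotient.lift (fun a : G => ρ a (π (ρ a⁻¹ x))) (by
    intro a b hab
    have h : a⁻¹ * b ∈ M := QuotientGroup.leftRel_apply.1 hab
    change ρ a (π (ρ a⁻¹ x)) = ρ b (π (ρ b⁻¹ x))
    have e1 : b = a * (a⁻¹ * b) := by group
    have e2 : b⁻¹ = (a⁻¹ * b)⁻¹ * a⁻¹ := by group
    rw [e2, hmul, hπM _ (M.inv_mem h), ← hmul]
    congr 1
    rw [mul_inv_rev, inv_inv, ← mul_assoc, mul_inv_cancel, one_mul])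
  have hφ : ∀ (x : X) (a : G), φ x (a : G ⧸ M) = ρ a (π (ρ a⁻¹ x)) := fun _ _ => rfl
  have hφs : ∀ (h : G) (x : X) (c : G ⧸ M), φ (ρ h x) (h • c) = ρ h (φ x c) := by
    intro h x c
    obtain ⟨a, rfl⟩ := QuotientGroup.mk_surjective c
    have e1 : h • ((a : G) : G ⧸ M) = ((h * a : G) : G ⧸ M) := rfl
    rw [e1, hφ, hφ, ← hmul, mul_inv_rev, inv_mul_cancel_right, hmul h a]
  have hφadd : ∀ (x x' : X) (c : G ⧸ M), φ (x + x') c = φ x c + φ x' c := by
    intro x x' c
    obtain ⟨a, rfl⟩ := QuotientGroup.mk_surjective c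
    simp only [hφ, map_add]
  -- the trace
  let T : X →+ X :=
    { toFun := fun x => ∑ c : G ⧸ M, φ x c
      map_zero' := by
        apply Finset.sum_eq_zero
        intro c _
        obtain ⟨a, rfl⟩ := QuotientGroup.mk_surjective c
        simp only [hφ, map_zero]
      map_add' := fun x x' => by
        rw [← Finset.sum_add_distrib]
        exact Finset.sum_congr rfl fun c _ => hφadd x x' c }
  have hT : ∀ x, T x = ∑ c : G ⧸ M, φ x c := fun _ => rfl
  have hTg : ∀ (h : G) (x : X), T (ρ h x) = ρ h (T x) := by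
    intro h x
    rw [hT, hT, map_sum, ← Equiv.sum_comp (MulAction.toPerm h)]
    exact Finset.sum_congr rfl fun c _ => hφs h x c
  -- on `E`-fixed vectors the trace is `π`
  have hTfix : ∀ x : X, (∀ y ∈ E, ρ y x = x) → T x = π x := by
    intro x hx
    have hinvφ : ∀ y ∈ E, ∀ c : G ⧸ M, φ x (y • c) = ρ y (φ x c) := by
      intro y hy c
      rw [← hφs y x c, hx y hy]
    rw [hT, ← Finset.add_sum_erase Finset.univ _ (Finset.mem_univ ((1 : G) : G ⧸ M))]
    have e1 : φ x ((1 : G) : G ⧸ M) = π x := by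
      rw [hφ, inv_one, hone, hone]
    rw [e1]
    have e2 : ∑ c ∈ Finset.univ.erase ((1 : G) : G ⧸ M), φ x c = 0 := by
      -- sum over the orbits of `E`
      rw [← Finset.sum_fiberwise_of_maps_to (s := Finset.univ.erase ((1 : G) : G ⧸ M))
        (t := Finset.univ) (g := fun c => (Quotient.mk (MulAction.orbitRel E (G ⧸ M)) c))
        (fun _ _ => Finset.mem_univ _)]
      apply Finset.sum_eq_zero
      intro o _
      obtain ⟨c₀, rfl⟩ := Quotient.exists_rep o
      by_cases hc₀ : c₀ = ((1 : G) : G ⧸ M)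
      · -- the orbit of the base point is the base point
        apply Finset.sum_eq_zero
        intro c hc
        exfalso
        rw [Finset.mem_filter, Finset.mem_erase] at hc
        obtain ⟨⟨hc1, -⟩, hc2⟩ := hc
        have h3 : c ∈ MulAction.orbit E c₀ := Quotient.exact hc2
        obtain ⟨y, rfl⟩ := h3
        apply hc1
        subst hc₀
        change ((((y : G) * 1 : G)) : G ⧸ M) = _
        rw [QuotientGroup.eq, mul_one, mul_one]
        exact M.inv_mem (hEM y.2)
      · have hset : (Finset.univ.erase ((1 : G) : G ⧸ M)).filter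
            (fun c => (Quotient.mk (MulAction.orbitRel E (G ⧸ M)) c) =
              Quotient.mk (MulAction.orbitRel E (G ⧸ M)) c₀) =
            Finset.univ.image (fun y : E => (y : G) • c₀) := by
          ext c
          rw [Finset.mem_filter, Finset.mem_erase, Finset.mem_image]
          constructor
          · rintro ⟨-, hc2⟩
            have h3 : c ∈ MulAction.orbit E c₀ := Quotient.exact hc2
            obtain ⟨y, rfl⟩ := h3
            exact ⟨y, Finset.mem_univ _, rfl⟩
          · rintro ⟨y, -, rfl⟩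
            refine ⟨⟨?_, Finset.mem_univ _⟩, Quotient.sound ⟨y, rfl⟩⟩
            intro h3
            apply hc₀
            have h4 : c₀ = ((y : G)⁻¹) • ((1 : G) : G ⧸ M) := by
              rw [← h3, inv_smul_smul]
            rw [h4]
            change ((((y : G)⁻¹ * 1 : G)) : G ⧸ M) = _
            rw [QuotientGroup.eq, mul_one, mul_one, inv_inv]
            exact hEM y.2
        rw [hset, Finset.sum_image]
        · have : ∀ y : E, φ x ((y : G) • c₀) = ρ (y : G) (φ x c₀) := fun y => hinvφ y y.2 c₀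
          rw [Finset.sum_congr rfl fun y _ => this y]
          exact h0 _
        · intro y _ y' _ hyy
          obtain ⟨a, rfl⟩ := QuotientGroup.mk_surjective c₀
          have h3 : ((((y : G) * a : G)) : G ⧸ M) = (((y' : G) * a : G) : G ⧸ M) := hyy
          rw [QuotientGroup.eq] at h3
          have ha : a ∉ M := by
            intro ha
            apply hc₀
            rw [QuotientGroup.eq, mul_one]
            exact M.inv_mem ha
          have h4 : a⁻¹ * ((y : G)⁻¹ * (y' : G)) * a ∈ M := by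
            have : a⁻¹ * ((y : G)⁻¹ * (y' : G)) * a = ((y : G) * a)⁻¹ * ((y' : G) * a) := by group
            rwa [this]
          have h5 := h1 a ha _ (E.mul_mem (E.inv_mem y.2) y'.2) h4
          apply Subtype.ext
          rw [inv_mul_eq_one] at h5
          exact h5
    rw [e2, add_zero]
  -- the trace is the identity on the `G`-submodule generated by `π X`
  have hTπ : ∀ x, T (π x) = π x := by
    intro x
    have key : AddSubgroup.closure
        {z | ∃ m ∈ M, ∃ x, π x = x ∧ (∀ y ∈ E, ρ y x = x) ∧ z = ρ m x} ≤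
        (T - AddMonoidHom.id X).ker := by
      rw [AddSubgroup.closure_le]
      rintro _ ⟨m, hm, x, hx, hxE, rfl⟩
      rw [SetLike.mem_coe, AddMonoidHom.mem_ker, AddMonoidHom.sub_apply, AddMonoidHom.id_apply,
        hTg, hTfix x hxE, hx, sub_self]
    have h3 := key (h2 x)
    rwa [AddMonoidHom.mem_ker, AddMonoidHom.sub_apply, AddMonoidHom.id_apply, sub_eq_zero] at h3
  let Y : AddSubgroup X := AddSubgroup.closure {z | ∃ (g : G) (x : X), z = ρ g (π x)}
  have hYT : ∀ y ∈ Y, T y = y := by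
    have key : Y ≤ (T - AddMonoidHom.id X).ker := by
      rw [AddSubgroup.closure_le]
      rintro _ ⟨g, x, rfl⟩
      rw [SetLike.mem_coe, AddMonoidHom.mem_ker, AddMonoidHom.sub_apply, AddMonoidHom.id_apply,
        hTg, hTπ, sub_self]
    intro y hy
    have h3 := key hy
    rwa [AddMonoidHom.mem_ker, AddMonoidHom.sub_apply, AddMonoidHom.id_apply, sub_eq_zero] at h3
  have hYρ : ∀ (g : G), ∀ y ∈ Y, ρ g y ∈ Y := by
    intro g y hy
    have key : Y ≤ Y.comap (ρ g : X →+ X) := by
      rw [AddSubgroup.closure_le]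
      rintro _ ⟨g', x, rfl⟩
      change ρ g (ρ g' (π x)) ∈ Y
      rw [← hmul]
      exact AddSubgroup.subset_closure ⟨_, _, rfl⟩
    exact key hy
  -- the part killed by `π`
  have hker : ∀ y ∈ Y, π y = 0 → y = 0 := by
    by_contra hcon
    push Not at hcon
    obtain ⟨y₀, hy₀, hπy₀, hne⟩ := hcon
    let Z : AddSubgroup X := Y ⊓ π.ker
    have hZE : ∀ y ∈ E, ∀ z ∈ Z, ρ y z ∈ Z := by
      rintro y hy z ⟨hz1, hz2⟩
      refine ⟨hYρ y z hz1, ?_⟩
      have hz2' : π z = 0 := hz2
      change π (ρ y z) = 0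
      rw [hπM y (hEM hy), hz2', map_zero]
    letI : MulAction E Z :=
      { smul := fun y z => ⟨ρ (y : G) (z : X), hZE y y.2 z z.2⟩
        one_smul := fun z => Subtype.ext (hone z)
        mul_smul := fun a b z => Subtype.ext (hmul a b z) }
    have hcard : p ∣ Nat.card Z := by
      have hZne : (⟨y₀, hy₀, hπy₀⟩ : Z) ≠ 0 := fun h => hne (congrArg Subtype.val h)
      have h3 : addOrderOf (⟨y₀, hy₀, hπy₀⟩ : Z) = p := by
        apply addOrderOf_eq_prime _ hZne
        apply Subtype.ext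
        exact hp y₀
      rw [← h3]
      exact addOrderOf_dvd_natCard _
    obtain ⟨z, hz, hz0⟩ := hE.exists_fixed_point_of_prime_dvd_card_of_fixed_point Z hcard
      (a := 0) (by
        intro y
        apply Subtype.ext
        exact map_zero (ρ (y : G)))
    have hzfix : ∀ y ∈ E, ρ y (z : X) = z := fun y hy => congrArg Subtype.val (hz ⟨y, hy⟩)
    have h3 := hTfix z hzfix
    rw [hYT z z.2.1] at h3
    have h4 : π (z : X) = 0 := z.2.2
    rw [h4] at h3
    exact hz0 (Subtype.ext h3.symm)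
  have hgx : ρ g (π x) ∈ Y := AddSubgroup.subset_closure ⟨g, x, rfl⟩
  have hπY : ∀ x, π x ∈ Y := fun x => AddSubgroup.subset_closure ⟨1, x, (hone _).symm⟩
  have h3 := hker (ρ g (π x) - π (ρ g (π x))) (Y.sub_mem hgx (hπY _)) (by rw [map_sub, hπ, sub_self])
  exact (sub_eq_zero.1 h3).symm

/-- The trace lemma, with plain functions. -/
theorem green_fun {G X : Type*} [Group G] [Finite G] [AddCommGroup X] [Finite X] {p : ℕ}
    [Fact p.Prime] (ρ : G → X → X) (hadd : ∀ g x y, ρ g (x + y) = ρ g x + ρ g y)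
    (hone : ∀ x, ρ 1 x = x) (hmul : ∀ g h x, ρ (g * h) x = ρ g (ρ h x))
    (M E : Subgroup G) [Fintype E]
    (hE : IsPGroup p E) (hp : ∀ x : X, p • x = 0)
    (h1 : ∀ g : G, g ∉ M → ∀ y ∈ E, g⁻¹ * y * g ∈ M → y = 1) (hEM : E ≤ M)
    (h0 : ∀ x : X, ∑ y : E, ρ (y : G) x = 0)
    (π : X → X) (hπadd : ∀ x y, π (x + y) = π x + π y) (hπ : ∀ x, π (π x) = π x)
    (hπM : ∀ m ∈ M, ∀ x, π (ρ m x) = ρ m (π x))
    (h2 : ∀ S : AddSubgroup X, (∀ m ∈ M, ∀ x, π x = x → (∀ y ∈ E, ρ y x = x) → ρ m x ∈ S) →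
      ∀ x, π x ∈ S)
    (g : G) (x : X) : π (ρ g (π x)) = ρ g (π x) := by
  let ρ' : G →* AddMonoid.End X :=
    { toFun := fun g => AddMonoidHom.mk' (ρ g) (hadd g)
      map_one' := by ext x; exact hone x
      map_mul' := fun g h => by ext x; exact hmul g h x }
  let π' : X →+ X := AddMonoidHom.mk' π hπadd
  refine green ρ' M E hE hp h1 hEM h0 π' hπ hπM ?_ g x
  refine h2 _ ?_
  intro m hm x hx1 hx2
  exact AddSubgroup.subset_closure ⟨m, hm, x, hx1, hx2, rfl⟩

end Cfsg.Agent.H923
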