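import Mathlib
import Cfsg.Agent.H923.Thin

/-!
Overgroups of `N_Ω(K)`, thin case: a conjugate of a `K`-Siegel map `T_q(u, x)`, `q x ≠ 0`, that
normalises `K` is conjugate by an element normalising `K`.
-/

set_option autoImplicit false
set_option linter.unusedSectionVars false

namespace Cfsg.Agent.H923.KF

open QuadraticMap Module Cfsg.Agent.LieClassical.OrthCore Cfsg.Agent.LieClassical.OrthTrans
  Cfsg.Agent.LieClassical.OrthSimple Cfsg.Agent.ClassicalGeometry.OrthAutBasic
open scoped commutatorElement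

section Trans

variable {K V : Type*} [Field K] [AddCommGroup V] [Module K V] {q : QuadraticForm K V}

/-- Two nonzero singular vectors have a common opposite (dimension at least three). -/
theorem common_opposite (hq : Nondeg q) (hK : 3 ≤ finrank K V) {x y : V} (hx : q x = 0)
    (hy : q y = 0) (hx0 : x ≠ 0) (hy0 : y ≠ 0) :
    ∃ z, q z = 0 ∧ polar q z x ≠ 0 ∧ polar q z y ≠ 0 := by
  by_cases hxy : polar q x y = 0
  · obtain ⟨v, hv1, hv2⟩ : ∃ v, polar q x v ≠ 0 ∧ polar q y v ≠ 0 := by
      obtain ⟨a, ha⟩ := hq.exists_polar_ne hx0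
      obtain ⟨b, hb⟩ := hq.exists_polar_ne hy0
      by_cases h1 : polar q y a = 0
      · by_cases h2 : polar q x b = 0
        · exact ⟨a + b, by rw [polar_add_right, h2, add_zero]; exact ha,
            by rw [polar_add_right, h1, zero_add]; exact hb⟩
        · exact ⟨b, h2, hb⟩
      · exact ⟨a, ha, h1⟩
    refine ⟨v + (-(q v) * (polar q x v)⁻¹) • x, ?_, ?_, ?_⟩
    · rw [Q_add, QuadraticMap.map_smul, hx, smul_zero, add_zero, polar_smul_right,
        polar_comm q v x, smul_eq_mul]
      field_simp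
      ring
    · rw [polar_add_left, polar_smul_left, polar_self_of_sing hx, smul_zero, add_zero,
        polar_comm q v x]
      exact hv1
    · rw [polar_add_left, polar_smul_left, hxy, smul_zero, add_zero, polar_comm q v y]
      exact hv2
  · have hyp : Hyp q x ((polar q x y)⁻¹ • y) := by
      refine ⟨hx, ?_, ?_⟩
      · rw [QuadraticMap.map_smul, hy, smul_zero]
      · rw [polar_smul_right, smul_eq_mul, inv_mul_cancel₀ hxy]
    obtain ⟨a, c, ha1, ha2, hc1, hc2, hac⟩ := exists_perp2 hq hK hyp
    obtain ⟨w, hw, hxw, hyw⟩ : ∃ w, q w ≠ 0 ∧ polar q x w = 0 ∧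
        polar q ((polar q x y)⁻¹ • y) w = 0 := by
      rcases exists_nonsing hac with h | h | h
      · exact ⟨a, h, ha1, ha2⟩
      · exact ⟨c, h, hc1, hc2⟩
      · exact ⟨a + c, h, by rw [polar_add_right, ha1, hc1, add_zero],
          by rw [polar_add_right, ha2, hc2, add_zero]⟩
    have hyw' : polar q y w = 0 := by
      rw [polar_smul_left, smul_eq_mul] at hyw
      rcases mul_eq_zero.1 hyw with h | h
      · exact absurd (inv_eq_zero.1 h) hxy
      · exact h
    refine ⟨x + w - q w • ((polar q x y)⁻¹ • y), sing_vec hyp hxw hyw, ?_, ?_⟩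
    · rw [polar_sub_left, polar_add_left, polar_smul_left, hyp.pair', polar_comm q w x, hxw,
        polar_self_of_sing hx, smul_eq_mul, mul_one, zero_add, zero_sub]
      exact neg_ne_zero.2 hw
    · rw [polar_sub_left, polar_add_left, polar_smul_left, polar_smul_left, polar_comm q w y, hyw',
        polar_self_of_sing hy, smul_zero, smul_zero, add_zero, sub_zero]
      exact hxy

/-- A Siegel map moving one singular point to another. -/
theorem exists_T_move (hq : Nondeg q) (hK : 3 ≤ finrank K V) {x y : V} (hx : q x = 0)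
    (hy : q y = 0) (hx0 : x ≠ 0) (hy0 : y ≠ 0) :
    ∃ (z w : V) (c : K), c ≠ 0 ∧ T q z w y = c • x := by
  obtain ⟨z, hz, hzx, hzy⟩ := common_opposite hq hK hx hy hx0 hy0
  have h1 : Hyp q z ((polar q z y)⁻¹ • y) :=
    ⟨hz, by rw [QuadraticMap.map_smul, hy, smul_zero],
      by rw [polar_smul_right, smul_eq_mul, inv_mul_cancel₀ hzy]⟩
  have h2 : Hyp q z ((polar q z x)⁻¹ • x) :=
    ⟨hz, by rw [QuadraticMap.map_smul, hx, smul_zero],
      by rw [polar_smul_right, smul_eq_mul, inv_mul_cancel₀ hzx]⟩
  refine ⟨z, (polar q z x)⁻¹ • x - (polar q z y)⁻¹ • y, polar q z y * (polar q z x)⁻¹,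
    mul_ne_zero hzy (inv_ne_zero hzx), ?_⟩
  have h3 := T_partner h1 h2
  rw [map_smul] at h3
  have h4 : polar q z y • ((polar q z y)⁻¹ • T q z ((polar q z x)⁻¹ • x - (polar q z y)⁻¹ • y) y) =
      polar q z y • ((polar q z x)⁻¹ • x) := by rw [h3]
  rwa [smul_smul, mul_inv_cancel₀ hzy, one_smul, smul_smul] at h4

end Trans

variable {F K V : Type*} [Field F] [Field K] [Algebra F K] [AddCommGroup V] [Module F V]
  [Module K V] [IsScalarTower F K V] {q : QuadraticForm K V} {Q : QuadraticForm F V}
  {H : Subgroup (V ≃ₗ[F] V)} [Finite K] [FiniteDimensional F V]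

/-- An Artin--Schreier element for a cubic unipotent automorphism. -/
theorem exists_artin_schreier {τ : K ≃ₐ[F] K} (hne : τ ≠ AlgEquiv.refl)
    (h3 : ∀ c : K, τ (τ (τ c)) - 3 * τ (τ c) + 3 * τ c - c = 0) : ∃ c : K, τ c = c + 1 := by
  have hex : ∃ e : K, τ e - e ≠ 0 ∧ τ (τ e - e) = τ e - e := by
    obtain ⟨e, he⟩ : ∃ e, τ e ≠ e := by
      by_contra hcon
      push Not at hcon
      exact hne (AlgEquiv.ext hcon)
    have he' : τ e - e ≠ 0 := sub_ne_zero.2 he
    by_cases h2 : τ (τ e - e) = τ e - e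
    · exact ⟨e, he', h2⟩
    · refine ⟨τ e - e, sub_ne_zero.2 h2, ?_⟩
      have := h3 e
      simp only [map_sub]
      linear_combination this
  obtain ⟨e, he, hfix⟩ := hex
  refine ⟨e / (τ e - e), ?_⟩
  rw [map_div₀, hfix]
  field_simp
  ring

/-- The image of `(T - 1)^2`. -/
theorem T_sub_sq {u x : V} (hu : q u = 0) (hx : polar q u x = 0) (v : V) :
    T q u x (T q u x v - v) - (T q u x v - v) = (-(2 * q x * polar q u v)) • u := by
  have e1 : T q u x v - v = polar q u v • x - (polar q x v + q x * polar q u v) • u := by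
    rw [T_apply hu hx]; module
  have e2 : T q u x x = x - (2 * q x) • u := by
    rw [T_apply_perp hu hx hx, polar_self']
  rw [e1, map_sub, map_smul, map_smul, T_apply_self hu hx, e2]
  module

/-- **Fusion of the Siegel maps is controlled by the normaliser of `K`.** -/
theorem Over.star (h : Over q Q H) {p : ℕ} [Fact p.Prime] [CharP F p] (hp : p ≠ 2)
    (hr : (finrank F K).Prime) (hK : 3 ≤ finrank K V)
    (hex : ¬ (p = 3 ∧ finrank F K = 3 ∧ finrank K V = 3))
    {u : V} (hu : q u = 0) (hu0 : u ≠ 0) (hthin : Thin q H u) {x : V} (hx : polar q u x = 0)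
    (hqx : q x ≠ 0) {g : V ≃ₗ[F] V} (hg : g ∈ H) (hgN : g⁻¹ * res F (T q u x) * g ∈ NK F K V) :
    g ∈ NK F K V := by
  have hT := h.tr
  have hq := h.nondeg
  have hgO := h.leO hg
  have : CharP K p := charP_of_injective_algebraMap (algebraMap F K).injective p
  have h2 : (2 : K) ≠ 0 := CharP.cast_ne_zero_of_ne_of_prime K Nat.prime_two hp
  obtain ⟨u', hyp⟩ := exists_hyp hq hu hu0
  have hgg : ∀ v : V, g (g⁻¹ v) = v := fun v => g.apply_symm_apply v
  have hgg' : ∀ v : V, g⁻¹ (g v) = v := fun v => g.symm_apply_apply v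
  set y : V ≃ₗ[F] V := g⁻¹ * res F (T q u x) * g with hy
  have hya : ∀ v, y v = g⁻¹ (T q u x (g v)) := fun _ => rfl
  have hysq : ∀ v, y (y v - v) - (y v - v) = g⁻¹ ((-(2 * q x * polar q u (g v))) • u) := by
    intro v
    have e1 : y v - v = g⁻¹ (T q u x (g v) - g v) := by rw [hya, map_sub, hgg']
    rw [e1, hya, hgg, ← map_sub, T_sub_sq hu hx]
  obtain ⟨τ, hτ⟩ := hgN
  set u₁ : V := g⁻¹ u with hu₁
  have hu₁0 : u₁ ≠ 0 := by
    intro h0
    apply hu0
    rw [← hgg u, ← hu₁, h0, map_zero]
  have hyu₁ : y u₁ = u₁ := by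
    rw [hya, hu₁, hgg, T_apply_self hu hx]
  have hycube : ∀ v, y (y (y v - v) - (y v - v)) - (y (y v - v) - (y v - v)) = 0 := by
    intro v
    rw [hysq v, hya, hgg, map_smul, T_apply_self hu hx, sub_self]
  -- the automorphism is trivial
  have hτ1 : τ = AlgEquiv.refl := by
    by_contra hne
    have h3 : ∀ c : K, τ (τ (τ c)) - 3 * τ (τ c) + 3 * τ c - c = 0 := by
      intro c
      have h4 := hycube (c • u₁)
      simp only [hτ, hyu₁, map_sub] at h4
      have h5 : (τ (τ (τ c)) - 3 * τ (τ c) + 3 * τ c - c) • u₁ = 0 := by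
        rw [← h4]
        module
      exact (smul_eq_zero.1 h5).resolve_right hu₁0
    obtain ⟨c, hc⟩ := exists_artin_schreier hne h3
    by_cases hp3 : p = 3
    · by_cases hr3 : finrank F K = 3
      · have hk4 : 4 ≤ finrank K V := by
          by_contra hlt
          exact hex ⟨hp3, hr3, by omega⟩
        -- a vector fixed by `T q u x` outside the line
        obtain ⟨w, hw0, hw⟩ := exists_perp_ne (Q := q) ![u, x, u'] (by omega)
        have hw1 : polar q u w = 0 := hw 0
        have hw2 : polar q x w = 0 := hw 1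
        have hw3 : polar q u' w = 0 := hw 2
        have hyw : y (g⁻¹ w) = g⁻¹ w := by
          rw [hya, hgg, T_apply_fix hu hx hw1 hw2]
        have h4 := hysq ((c ^ 2) • g⁻¹ w)
        simp only [hτ, hyw, map_sub, map_pow, hc, map_add, map_one] at h4
        have h5 : (2 : K) • g⁻¹ w = g⁻¹ (-(2 * q x * polar q u (g (c ^ 2 • g⁻¹ w))) • u) := by
          rw [← h4]
          module
        have h6 : (2 : K) • g⁻¹ w = g⁻¹ ((2 : K) • w) := by
          rw [two_smul, two_smul, map_add]
        rw [h6] at h5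
        have h7 := g⁻¹.injective h5
        have h8 : (2 : K) * polar q u' w = -(2 * q x * polar q u (g (c ^ 2 • g⁻¹ w))) := by
          have := congrArg (polar q u') h7
          rwa [polar_smul_right, polar_smul_right, hyp.pair', smul_eq_mul, smul_eq_mul,
            mul_one] at this
        rw [hw3, mul_zero] at h8
        rw [← h8, zero_smul] at h7
        exact hw0 ((smul_eq_zero.1 h7).resolve_left h2)
      · -- orders
        have h4 : y ^ p = 1 := pow_eq_one_of_cube hp hycube
        have h5 : ∀ (n : ℕ) (c : K) (v : V), (y ^ n) (c • v) = ((τ ^ n : K ≃ₐ[F] K)) c • (y ^ n) v := by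
          intro n
          induction n with
          | zero => intro c v; rfl
          | succ n ih =>
            intro c v
            have e1 : ∀ z, (y ^ (n + 1)) z = (y ^ n) (y z) := fun z => by rw [pow_succ]; rfl
            rw [e1, e1, hτ, ih, pow_succ]
            rfl
        have h6 : τ ^ p = 1 := by
          ext c
          have := h5 p c u₁
          rw [h4] at this
          change c • u₁ = (τ ^ p) c • u₁ at this
          rw [← sub_eq_zero, ← sub_smul] at this
          exact (sub_eq_zero.1 ((smul_eq_zero.1 this).resolve_right hu₁0)).symm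
        have hfF : Finite F := finiteF F K
        have h7 : Nat.card (K ≃ₐ[F] K) = finrank F K := IsGalois.card_aut_eq_finrank F K
        have h8 : orderOf τ ∣ p := orderOf_dvd_of_pow_eq_one h6
        have h9 : orderOf τ ∣ finrank F K := by rw [← h7]; exact orderOf_dvd_natCard τ
        have h10 : Nat.Coprime p (finrank F K) := by
          rw [Nat.coprime_primes Fact.out hr, hp3]
          exact fun h => hr3 h.symm
        have h11 : orderOf τ = 1 := Nat.eq_one_of_dvd_coprimes h10 h8 h9
        exact hne (orderOf_eq_one_iff.1 h11)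
    · have h4 := h3 (c ^ 3)
      simp only [map_pow, hc, map_add, map_one] at h4
      have h5 : (2 : K) * 3 = 0 := by linear_combination h4
      rcases mul_eq_zero.1 h5 with h6 | h6
      · exact h2 h6
      · exact CharP.cast_ne_zero_of_ne_of_prime K Nat.prime_three hp3 h6
  have hτc : ∀ (c : K) (v : V), y (c • v) = c • y v := by
    intro c v
    rw [hτ, hτ1]
    rfl
  -- the image of the square
  set v₁ : V := (-(2 * q x))⁻¹ • u' with hv₁
  have hv₁u : -(2 * q x * polar q u v₁) = 1 := by
    rw [hv₁, polar_smul_right, hyp.pair, smul_eq_mul, mul_one]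
    have : (2 * q x) ≠ 0 := mul_ne_zero h2 hqx
    field_simp
  have hline : ∀ d : K, ∃ c : K, d • u₁ = g⁻¹ (c • u) := by
    intro d
    have h4 := hysq (d • g⁻¹ v₁)
    refine ⟨_, Eq.trans ?_ h4⟩
    have h5 := hysq (g⁻¹ v₁)
    rw [hgg, hv₁u, one_smul] at h5
    rw [← hu₁] at h5
    rw [hτc, ← smul_sub, hτc, ← smul_sub, h5]
  have hline' : ∀ c : K, ∃ d : K, g⁻¹ (c • u) = d • u₁ := by
    choose t ht using hline
    have hinj : Function.Injective t := by
      intro a b hab
      have h4 : a • u₁ = b • u₁ := by rw [ht, ht, hab]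
      rw [← sub_eq_zero, ← sub_smul] at h4
      exact sub_eq_zero.1 ((smul_eq_zero.1 h4).resolve_right hu₁0)
    intro c
    obtain ⟨d, hd⟩ := (Finite.injective_iff_surjective.1 hinj) c
    exact ⟨d, by rw [ht, hd]⟩
  have hu₁s : q u₁ = 0 := by
    apply hT.sing h2
    intro d
    obtain ⟨c, hc⟩ := hline d
    rw [hc, mem_O.1 ((O Q).inv_mem hgO), hT.sing_smul hu]
  obtain ⟨z, w, e, he, hmove⟩ := exists_T_move hq hK hu hu₁s hu0 hu₁0
  have hm : res F (T q z w) ∈ H := h.T_mem hp z w
  have hN := h.stab hp hK hu hu0 hthin (H.mul_mem hm (H.inv_mem hg)) (by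
    intro c
    obtain ⟨d, hd⟩ := hline' c
    refine ⟨d * e, ?_⟩
    change T q z w (g⁻¹ (c • u)) = _
    rw [hd, map_smul, hmove, smul_smul])
  have e1 : g = (res F (T q z w) * g⁻¹)⁻¹ * res F (T q z w) := by group
  rw [e1]
  exact (NK F K V).mul_mem ((NK F K V).inv_mem hN) (res_mem_NK _)

end Cfsg.Agent.H923.KF
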