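import Mathlib
import Cfsg.Agent.H923.Star
import Cfsg.Agent.H923.Green
import Cfsg.Agent.H923.Ext

/-!
Overgroups of `N_Ω(K)`, thin case: such an overgroup normalises `K`. The trace lemma is applied to
the module of bilinear forms on `V`, with the projection onto the `K`-balanced alternating forms.
-/

set_option autoImplicit false
set_option linter.unusedSectionVars false
set_option linter.style.haveILetI false

namespace Cfsg.Agent.H923.KF

open QuadraticMap Module Cfsg.Agent.LieClassical.OrthCore Cfsg.Agent.LieClassical.OrthTrans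
  Cfsg.Agent.LieClassical.OrthSimple Cfsg.Agent.ClassicalGeometry.OrthAutBasic
open scoped commutatorElement

variable {F K V : Type*} [Field F] [Field K] [Algebra F K] [AddCommGroup V] [Module F V]
  [Module K V] [IsScalarTower F K V] {q : QuadraticForm K V} {Q : QuadraticForm F V}

/-- The bilinear forms. -/
abbrev BF (F V : Type*) [Field F] [AddCommGroup V] [Module F V] := V →ₗ[F] V →ₗ[F] F

/-- The action on bilinear forms. -/
def rhoB (F V : Type*) [Field F] [AddCommGroup V] [Module F V] :
    (V ≃ₗ[F] V) →* AddMonoid.End (BF F V) where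
  toFun g :=
    { toFun := fun B => B.compl₁₂ (g⁻¹ : V ≃ₗ[F] V).toLinearMap (g⁻¹ : V ≃ₗ[F] V).toLinearMap
      map_zero' := by ext v w; rfl
      map_add' := fun B B' => by ext v w; rfl }
  map_one' := by ext B v w; rfl
  map_mul' g h := by
    ext B v w
    change B ((g * h)⁻¹ v) ((g * h)⁻¹ w) = B (h⁻¹ (g⁻¹ v)) (h⁻¹ (g⁻¹ w))
    rw [mul_inv_rev]
    rfl

theorem rhoB_apply (g : V ≃ₗ[F] V) (B : BF F V) (v w : V) :
    rhoB F V g B v w = B (g⁻¹ v) (g⁻¹ w) := rfl

section Proj

variable [Fintype K]

open scoped Classical in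
/-- Averaging over `K^×`. -/
noncomputable def av (B : BF F V) : BF F V :=
  -∑ c : Kˣ, B.compl₁₂ (Algebra.lsmul F F V (c : K)) (Algebra.lsmul F F V ((c⁻¹ : Kˣ) : K))

open scoped Classical in
theorem av_apply (B : BF F V) (v w : V) :
    av (K := K) B v w = -∑ c : Kˣ, B ((c : K) • v) (((c⁻¹ : Kˣ) : K) • w) := by
  simp only [av, LinearMap.neg_apply, LinearMap.sum_apply, LinearMap.compl₁₂_apply,
    Algebra.lsmul_coe]

/-- The projection onto balanced alternating forms. -/
noncomputable def prB (K : Type*) [Field K] [Algebra F K] [Module K V] [IsScalarTower F K V]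
    [Fintype K] : BF F V →+ BF F V where
  toFun B := (2 : F)⁻¹ • (av (K := K) B - (av (K := K) B).flip)
  map_zero' := by
    ext v w
    simp [av_apply]
  map_add' B B' := by
    ext v w
    simp only [LinearMap.smul_apply, LinearMap.sub_apply, LinearMap.flip_apply,
      LinearMap.add_apply, av_apply, Finset.sum_add_distrib, smul_eq_mul]
    ring

theorem prB_apply (B : BF F V) (v w : V) :
    prB K B v w = (2 : F)⁻¹ * (av (K := K) B v w - av (K := K) B w v) := by
  simp only [prB, AddMonoidHom.coe_mk, ZeroHom.coe_mk, LinearMap.smul_apply, LinearMap.sub_apply,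
    LinearMap.flip_apply, smul_eq_mul]

theorem av_balanced (B : BF F V) (d : K) (v w : V) :
    av (K := K) B (d • v) w = av (K := K) B v (d • w) := by
  classical
  rw [av_apply, av_apply]
  congr 1
  by_cases hd : d = 0
  · subst hd
    simp
  · refine Fintype.sum_equiv (Equiv.mulRight (Units.mk0 d hd)) _ _ fun c => ?_
    rw [Equiv.coe_mulRight, mul_inv_rev]
    simp only [Units.val_mul, Units.val_mk0, Units.val_inv_eq_inv_val, smul_smul]
    congr 2
    field_simp

theorem av_of_balanced (B : BF F V) (hB : ∀ (d : K) (v w : V), B (d • v) w = B v (d • w)) :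
    av (K := K) B = B := by
  classical
  ext v w
  have h1 : ∀ c : Kˣ, B ((c : K) • v) (((c⁻¹ : Kˣ) : K) • w) = B v w := by
    intro c
    rw [hB, smul_smul, ← Units.val_mul, mul_inv_cancel, Units.val_one, one_smul]
  rw [av_apply, Finset.sum_congr rfl fun c _ => h1 c, Finset.sum_const, Finset.card_univ]
  have h2 : (Fintype.card K : F) = 0 := by
    apply (algebraMap F K).injective
    rw [map_natCast, map_zero, FiniteField.cast_card_eq_zero]
  have h3 : Fintype.card K = Fintype.card Kˣ + 1 := by
    rw [Fintype.card_units]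
    have := Fintype.card_pos (α := K)
    omega
  rw [h3] at h2
  push_cast at h2
  have h4 : (Fintype.card Kˣ : F) = -1 := by linear_combination h2
  rw [nsmul_eq_mul, h4]
  ring

/-- Fixed points of the projection. -/
theorem prB_of (h2 : (2 : F) ≠ 0) {B : BF F V}
    (hB : ∀ (d : K) (v w : V), B (d • v) w = B v (d • w)) (hs : ∀ v w, B v w = -B w v) :
    prB K B = B := by
  ext v w
  rw [prB_apply, av_of_balanced B hB, hs w v]
  field_simp
  ring

theorem prB_balanced (B : BF F V) (d : K) (v w : V) :
    prB K B (d • v) w = prB K B v (d • w) := by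
  rw [prB_apply, prB_apply, av_balanced, ← av_balanced B d w v]

theorem prB_skew (B : BF F V) (v w : V) : prB K B v w = -prB K B w v := by
  rw [prB_apply, prB_apply]
  ring

theorem prB_prB (h2 : (2 : F) ≠ 0) (B : BF F V) : prB K (prB K B) = prB K B :=
  prB_of h2 (prB_balanced B) (prB_skew B)

theorem av_rho {g : V ≃ₗ[F] V} (hg : g ∈ NK F K V) (B : BF F V) :
    av (K := K) (rhoB F V g B) = rhoB F V g (av (K := K) B) := by
  classical
  obtain ⟨τ, hτ⟩ := (NK F K V).inv_mem hg
  ext v w
  rw [av_apply, rhoB_apply, av_apply]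
  congr 1
  refine Fintype.sum_equiv (Units.mapEquiv τ.toMulEquiv).toEquiv _ _ fun c => ?_
  rw [rhoB_apply, hτ, hτ]
  congr 2

theorem prB_rho {g : V ≃ₗ[F] V} (hg : g ∈ NK F K V) (B : BF F V) :
    prB K (rhoB F V g B) = rhoB F V g (prB K B) := by
  ext v w
  rw [prB_apply, av_rho hg, rhoB_apply, rhoB_apply, rhoB_apply, prB_apply]

end Proj

section BB

/-- The form `x ∧ y`. -/
noncomputable def BB (q : QuadraticForm K V) (F : Type*) [Field F] [Algebra F K] [Module F V]
    [IsScalarTower F K V] (x y : V) : BF F V :=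
  LinearMap.mk₂ F (fun v w => Algebra.trace F K (polar q x v * polar q y w -
      polar q y v * polar q x w))
    (fun v v' w => by
      rw [polar_add_right, polar_add_right, ← map_add]; congr 1; ring)
    (fun r v w => by
      rw [← algebraMap_smul K r v, polar_smul_right, polar_smul_right, smul_eq_mul, smul_eq_mul,
        ← map_smul, Algebra.smul_def]; congr 1; ring)
    (fun v w w' => by
      rw [polar_add_right, polar_add_right, ← map_add]; congr 1; ring)
    (fun r v w => by
      rw [← algebraMap_smul K r w, polar_smul_right, polar_smul_right, smul_eq_mul, smul_eq_mul,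
        ← map_smul, Algebra.smul_def]; congr 1; ring)

theorem BB_apply (x y v w : V) : BB q F x y v w =
    Algebra.trace F K (polar q x v * polar q y w - polar q y v * polar q x w) := rfl

theorem BB_add_left (x x' y : V) : BB q F (x + x') y = BB q F x y + BB q F x' y := by
  ext v w
  rw [LinearMap.add_apply, LinearMap.add_apply, BB_apply, BB_apply, BB_apply, polar_add_left,
    polar_add_left, ← map_add]
  congr 1; ring

theorem BB_swap (x y : V) : BB q F y x = -BB q F x y := by
  ext v w
  rw [LinearMap.neg_apply, LinearMap.neg_apply, BB_apply, BB_apply, ← map_neg]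
  congr 1; ring

theorem BB_add_right (x y y' : V) : BB q F x (y + y') = BB q F x y + BB q F x y' := by
  ext v w
  rw [LinearMap.add_apply, LinearMap.add_apply, BB_apply, BB_apply, BB_apply, polar_add_left,
    polar_add_left, ← map_add]
  congr 1; ring

theorem BB_smul (c : K) (x y : V) : BB q F x (c • y) = BB q F (c • x) y := by
  ext v w
  rw [BB_apply, BB_apply, polar_smul_left, polar_smul_left, polar_smul_left, polar_smul_left]
  simp only [smul_eq_mul]
  congr 1; ring

theorem BB_self (x : V) (c : K) : BB q F (c • x) x = 0 := by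
  ext v w
  rw [BB_apply, polar_smul_left, polar_smul_left, LinearMap.zero_apply, LinearMap.zero_apply]
  simp only [smul_eq_mul]
  rw [← map_zero (Algebra.trace F K)]
  congr 1; ring

theorem BB_self' (x : V) (c : K) : BB q F x (c • x) = 0 := by rw [BB_smul, BB_self]

theorem BB_neg_left (x y : V) : BB q F (-x) y = -BB q F x y := by
  ext v w
  rw [LinearMap.neg_apply, LinearMap.neg_apply, BB_apply, BB_apply, polar_neg_left, polar_neg_left,
    ← map_neg]
  congr 1; ring

/-- Adding a multiple of the first vector. -/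
theorem BB_sub_smul (x y : V) (c d : K) : BB q F (c • x) (y - d • x) = BB q F (c • x) y := by
  ext v w
  rw [BB_apply, BB_apply]
  congr 1
  simp only [polar_sub_left, polar_smul_left, smul_eq_mul]
  ring

theorem BB_res (g : V ≃ₗ[K] V) (hg : g ∈ O q) (x y : V) :
    rhoB F V (res F g) (BB q F x y) = BB q F (g x) (g y) := by
  ext v w
  have e : ∀ a b : V, polar q a ((res F g)⁻¹ b) = polar q (g a) b := by
    intro a b
    rw [← polar_map hg a]
    congr 1
    exact (res F g).apply_symm_apply b
  rw [rhoB_apply, BB_apply, BB_apply, e, e, e, e]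

theorem BB_balanced (x y : V) (d : K) (v w : V) :
    BB q F x y (d • v) w = BB q F x y v (d • w) := by
  rw [BB_apply, BB_apply, polar_smul_right, polar_smul_right, polar_smul_right, polar_smul_right]
  simp only [smul_eq_mul]
  congr 1; ring

theorem BB_skew (x y v w : V) : BB q F x y v w = -BB q F x y w v := by
  rw [BB_apply, BB_apply, ← map_neg]
  congr 1; ring

end BB

variable {H : Subgroup (V ≃ₗ[F] V)}

/-- If `g` preserves the balanced alternating forms then it normalises `K`. -/
theorem mem_NK_of_preserves [Fintype K] (hq : Nondeg q) (h2 : (2 : F) ≠ 0) (hK : 2 ≤ finrank K V)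
    {g : V ≃ₗ[F] V}
    (h : ∀ B : BF F V, prB K (rhoB F V g⁻¹ (prB K B)) = rhoB F V g⁻¹ (prB K B)) :
    g ∈ NK F K V := by
  apply mem_NK_of_forall
  intro c
  have hgg : ∀ v : V, g (g⁻¹ v) = v := fun v => g.apply_symm_apply v
  have key : ∀ x y v w : V, BB q F x y (g (c • g⁻¹ v)) w = BB q F x y v (g (c • g⁻¹ w)) := by
    intro x y v w
    have h1 : prB K (BB q F x y) = BB q F x y := prB_of h2 (BB_balanced x y) (BB_skew x y)
    have h3 := h (BB q F x y)
    rw [h1] at h3
    have h4 := prB_balanced (K := K) (rhoB F V g⁻¹ (BB q F x y)) c (g⁻¹ v) (g⁻¹ w)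
    rw [h3, rhoB_apply, rhoB_apply, inv_inv, hgg, hgg] at h4
    exact h4
  have hz : ∀ v : V, ∃ κ : K, g (c • g⁻¹ v) = κ • v := by
    intro v
    by_cases hv : v = 0
    · subst hv
      exact ⟨0, by rw [map_zero, smul_zero, map_zero, smul_zero]⟩
    obtain ⟨y, hy⟩ := hq.exists_polar_eq hv 1
    rw [polar_comm] at hy
    refine ⟨polar q y (g (c • g⁻¹ v)), ?_⟩
    rw [← sub_eq_zero]
    apply hq
    intro x
    rw [polar_comm q _ x, polar_sub_right, polar_smul_right]
    apply trace_eq_zero (F := F)
    intro e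
    have h1 := key (e • x) y v v
    rw [BB_skew _ _ v] at h1
    have h3 : BB q F (e • x) y (g (c • g⁻¹ v)) v = 0 := by
      have : (2 : F) * BB q F (e • x) y (g (c • g⁻¹ v)) v = 0 := by linear_combination h1
      exact (mul_eq_zero.1 this).resolve_left h2
    rw [BB_apply, polar_smul_left, polar_smul_left, hy, smul_eq_mul, smul_eq_mul, mul_one] at h3
    rw [← h3]
    congr 1
    rw [smul_eq_mul]
    ring
  obtain ⟨κ, hκ⟩ := scalar_of_forall (K := K) hK (fun v => g (c • g⁻¹ v)) (fun x y => by
    simp only [map_add, smul_add]) hz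
  refine ⟨κ, fun v => ?_⟩
  have h1 := hκ (g v)
  have e1 : g⁻¹ (g v) = v := g.symm_apply_apply v
  simp only [e1] at h1
  exact h1

/-- A subgroup containing all `u ∧ x`, `u` singular, `x ⊥ u`, contains all balanced alternating
forms. -/
theorem prB_mem_of [Fintype K] [FiniteDimensional F V] (h2K : (2 : K) ≠ 0) (hT : IsTr q Q)
    (hQ : Nondeg Q) (hK : 3 ≤ finrank K V) {u u' : V} (hyp : Hyp q u u')
    {S : AddSubgroup (BF F V)}
    (hS1' : ∀ u₁ : V, q u₁ = 0 → ∀ x : V, polar q u₁ x = 0 → BB q F u₁ x ∈ S) :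
    ∀ B : BF F V, prB K B ∈ S := by
  classical
  have hq : Nondeg q := hT.nondeg hQ
  have hS2 : ∀ e f : V, Hyp q e f → ∀ c : K, BB q F (c • e) f ∈ S := by
    intro e f hef
    obtain ⟨a, b, ha1, ha2, hb1, hb2, hab⟩ := exists_perp2 hq hK hef
    obtain ⟨x, hx, hex, hfx⟩ : ∃ w, q w ≠ 0 ∧ polar q e w = 0 ∧ polar q f w = 0 := by
      rcases exists_nonsing hab with h | h | h
      · exact ⟨a, h, ha1, ha2⟩
      · exact ⟨b, h, hb1, hb2⟩
      · exact ⟨a + b, h, by rw [polar_add_right, ha1, hb1, add_zero],
          by rw [polar_add_right, ha2, hb2, add_zero]⟩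
    have hxe : polar q x e = 0 := by rw [polar_comm]; exact hex
    have h3 : ∀ t : K, BB q F ((2 * q x * t ^ 2) • e) f ∈ S := by
      intro t
      have htx : polar q f (t • x) = 0 := by rw [polar_smul_right, hfx, smul_zero]
      set u₁ := T q f (t • x) e with hu₁
      set x₁ := T q f (t • x) (t • x) with hx₁
      have hu₁q : q u₁ = 0 := by rw [hu₁, mem_O.1 (T_mem_O _ _)]; exact hef.left
      have hperp : polar q u₁ x₁ = 0 := by
        rw [hu₁, hx₁, polar_map (T_mem_O _ _), polar_smul_right, hex, smul_zero]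
      have e1 : u₁ = e + t • x + (-(q x * t ^ 2)) • f := by
        rw [hu₁, T_apply hef.right htx, hef.pair', polar_smul_left, hxe, QuadraticMap.map_smul,
          smul_zero, zero_smul, one_smul, smul_eq_mul]
        module
      have e2 : x₁ = t • x + (-(2 * (q x * t ^ 2))) • f := by
        rw [hx₁, T_apply_perp hef.right htx htx, polar_self', QuadraticMap.map_smul, smul_eq_mul]
        module
      have h4 := hS1' u₁ hu₁q x₁ hperp
      have h5 := hS1' e hef.left (t • x) (by rw [polar_smul_right, hex, smul_zero])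
      have h6 := hS1' ((q x * t ^ 2) • f) (by rw [QuadraticMap.map_smul, hef.right, smul_zero])
        (t • x) (by rw [polar_smul_left, htx, smul_zero])
      have e3 : BB q F ((2 * q x * t ^ 2) • e) f =
          BB q F e (t • x) + BB q F ((q x * t ^ 2) • f) (t • x) - BB q F u₁ x₁ := by
        ext v w
        simp only [LinearMap.add_apply, LinearMap.sub_apply, BB_apply]
        rw [e1, e2, ← map_add, ← map_sub]
        congr 1
        simp only [polar_add_left, polar_smul_left, smul_eq_mul]
        ring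
      rw [e3]
      exact S.sub_mem (S.add_mem h5 h6) h4
    intro c
    obtain ⟨a', b', hab'⟩ := sq_sub_sq h2K (c * (2 * q x)⁻¹)
    have h4 : c • e = (2 * q x * a' ^ 2) • e + (-(2 * q x * b' ^ 2)) • e := by
      rw [← add_smul]
      congr 1
      have : (2 * q x) ≠ 0 := mul_ne_zero h2K hx
      field_simp at hab'
      linear_combination hab'
    rw [h4, BB_add_left]
    refine S.add_mem (h3 a') ?_
    have h5 : BB q F ((-(2 * q x * b' ^ 2)) • e) f = -BB q F ((2 * q x * b' ^ 2) • e) f := by
      rw [neg_smul, BB_neg_left]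
    rw [h5]
    exact S.neg_mem (h3 b')
  have hS3 : ∀ u₁ : V, q u₁ = 0 → ∀ v : V, BB q F u₁ v ∈ S := by
    intro u₁ hu₁ v
    by_cases hu₁0 : u₁ = 0
    · exact hS1' u₁ hu₁ v (by rw [hu₁0, polar_zero_left])
    obtain ⟨f, hf⟩ := exists_hyp hq hu₁ hu₁0
    have e1 : v = (Cfsg.Agent.LieClassical.OrthTrans.proj q u₁ f v + polar q f v • u₁) +
        polar q u₁ v • f := by
      rw [Cfsg.Agent.LieClassical.OrthTrans.proj]; module
    rw [e1, BB_add_right, BB_add_right]
    refine S.add_mem (S.add_mem (hS1' u₁ hu₁ _ (polar_proj_left hf v)) ?_) ?_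
    · rw [BB_self']
      exact S.zero_mem
    · rw [BB_smul]
      exact hS2 u₁ f hf _
  have hS4 : ∀ x v : V, BB q F x v ∈ S := by
    intro x v
    refine sing_induction hyp (P := fun x => BB q F x v ∈ S) ?_ (fun a ha => hS3 a ha v) x
    intro a c ha hc
    rw [BB_add_left]
    exact S.add_mem ha hc
  -- the trace function
  have hG : ∃ κ : K, ∀ s t : K, ∑ c : Kˣ, Algebra.trace F K ((c : K) * s) *
      Algebra.trace F K (((c⁻¹ : Kˣ) : K) * t) = Algebra.trace F K (κ * (s * t)) := by
    let μ : K →ₗ[F] F := ∑ c : Kˣ, Algebra.trace F K ((c : K) * 1) •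
      ((Algebra.trace F K).comp (LinearMap.mulLeft F ((c⁻¹ : Kˣ) : K)))
    obtain ⟨κ, hκ⟩ := exists_trace_rep μ
    refine ⟨κ, fun s t => ?_⟩
    rw [← hκ]
    simp only [μ, LinearMap.sum_apply, LinearMap.smul_apply, LinearMap.comp_apply,
      LinearMap.mulLeft_apply, smul_eq_mul]
    by_cases hs : s = 0
    · subst hs
      simp
    · refine Fintype.sum_equiv (Equiv.mulRight (Units.mk0 s hs)) _ _ fun c => ?_
      rw [Equiv.coe_mulRight, mul_inv_rev]
      simp only [Units.val_mul, Units.val_mk0, Units.val_inv_eq_inv_val, mul_one]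
      congr 2
      field_simp
  obtain ⟨κ, hκ⟩ := hG
  have hS5 : ∀ B : BF F V, prB K B ∈ S := by
    intro B
    let b := Module.finBasis F V
    -- functionals are given by vectors
    have hrep : ∀ φ : V →ₗ[F] F, ∃ x : V, ∀ v, φ v = polar Q x v := by
      have hinj : Function.Injective (polarBilin Q : V →ₗ[F] Module.Dual F V) := by
        rw [injective_iff_map_eq_zero]
        intro x hx
        apply hQ
        intro y
        exact LinearMap.congr_fun hx y
      have hsurj := (LinearMap.injective_iff_surjective_of_finrank_eq_finrank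
        (Subspace.dual_finrank_eq (K := F) (V := V)).symm).1 hinj
      intro φ
      obtain ⟨x, hx⟩ := hsurj φ
      exact ⟨x, fun v => by rw [← hx]; rfl⟩
    choose X hX using hrep
    have hB : B = ∑ i, (polarBilin Q (X (b.coord i))).smulRight (B (b i)) := by
      ext v w
      rw [LinearMap.sum_apply, LinearMap.sum_apply]
      conv_lhs => rw [← b.sum_repr v, map_sum, LinearMap.sum_apply]
      refine Finset.sum_congr rfl fun i _ => ?_
      rw [map_smul, LinearMap.smul_apply, LinearMap.smulRight_apply, LinearMap.smul_apply,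
        polarBilin_apply_apply, ← hX]
      rfl
    rw [hB, map_sum]
    refine S.sum_mem fun i _ => ?_
    have h3 : prB K ((polarBilin Q (X (b.coord i))).smulRight (B (b i))) =
        BB q F ((-(2 : K)⁻¹ * κ) • X (b.coord i)) (X (B (b i))) := by
      ext v w
      rw [prB_apply, av_apply, av_apply, BB_apply]
      have e1 : ∀ (v w : V), ∑ c : Kˣ, ((polarBilin Q (X (b.coord i))).smulRight (B (b i)))
          ((c : K) • v) (((c⁻¹ : Kˣ) : K) • w) =
          Algebra.trace F K (κ * (polar q (X (b.coord i)) v * polar q (X (B (b i))) w)) := by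
        intro v w
        rw [← hκ]
        refine Finset.sum_congr rfl fun c _ => ?_
        rw [LinearMap.smulRight_apply, LinearMap.smul_apply, polarBilin_apply_apply, hX (B (b i)),
          hT.polar, hT.polar, polar_smul_right, polar_smul_right, smul_eq_mul, smul_eq_mul,
          smul_eq_mul]
      rw [e1, e1, polar_smul_left, polar_smul_left]
      have e2 : (2 : F)⁻¹ * (-Algebra.trace F K (κ * (polar q (X (b.coord i)) v *
          polar q (X (B (b i))) w)) - -Algebra.trace F K (κ * (polar q (X (b.coord i)) w *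
          polar q (X (B (b i))) v))) = Algebra.trace F K ((algebraMap F K (2 : F)⁻¹) *
          (-(κ * (polar q (X (b.coord i)) v * polar q (X (B (b i))) w)) - -(κ *
          (polar q (X (b.coord i)) w * polar q (X (B (b i))) v)))) := by
        rw [← Algebra.smul_def, map_smul, map_sub, map_neg, map_neg, smul_eq_mul]
      rw [e2]
      congr 1
      rw [map_inv₀, map_ofNat]
      simp only [smul_eq_mul]
      ring
    rw [h3]
    exact hS4 _ _
  exact hS5

/-- The subgroup of `K`-transvections on a vector `u`, as a homomorphism to `H`. -/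
noncomputable def Over.eps (h : Over q Q H) {p : ℕ} [Fintype K] [FiniteDimensional F V]
    [Fact p.Prime] [CharP F p] (hp : p ≠ 2) {u : V} (hu : q u = 0)
    {A : Type*} [AddCommGroup A] (θ : A →+ V) (hθ : ∀ a, polar q u (θ a) = 0) :
    Multiplicative A →* ↥H :=
  { toFun := fun a => ⟨res F (T q u (θ a.toAdd)), h.T_mem hp u _⟩
    map_one' := by
      apply Subtype.ext
      change res F (T q u (θ 0)) = 1
      rw [map_zero, T_zero_right, map_one]
    map_mul' := fun a b => by
      apply Subtype.ext
      change res F (T q u (θ (a.toAdd + b.toAdd))) =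
        res F (T q u (θ a.toAdd)) * res F (T q u (θ b.toAdd))
      rw [← map_mul, T_mul hu (hθ _) (hθ _), map_add] }

theorem Over.eps_coe (h : Over q Q H) {p : ℕ} [Fintype K] [FiniteDimensional F V]
    [Fact p.Prime] [CharP F p] (hp : p ≠ 2) {u : V} (hu : q u = 0)
    {A : Type*} [AddCommGroup A] (θ : A →+ V) (hθ : ∀ a, polar q u (θ a) = 0)
    (a : Multiplicative A) : ((h.eps hp hu θ hθ a : ↥H) : V ≃ₗ[F] V) =
      res F (T q u (θ a.toAdd)) := rfl

theorem Over.eps_injective (h : Over q Q H) {p : ℕ} [Fintype K] [FiniteDimensional F V]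
    [Fact p.Prime] [CharP F p] (hp : p ≠ 2) {u : V} (hu : q u = 0) (hu0 : u ≠ 0)
    {A : Type*} [AddCommGroup A] (θ : A →+ V) (hθ : ∀ a, polar q u (θ a) = 0)
    (hθq : ∀ a, a ≠ 0 → q (θ a) ≠ 0) : Function.Injective (h.eps hp hu θ hθ) := by
  have hcK : CharP K p := charP_of_injective_algebraMap (algebraMap F K).injective p
  obtain ⟨u', hyp⟩ := exists_hyp h.nondeg hu hu0
  rw [injective_iff_map_eq_one]
  intro a ha
  by_contra hne
  have h1 : q (θ a.toAdd) ≠ 0 := hθq _ hne
  have h3 := T_sub_sq hu (hθ a.toAdd) u'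
  have h5 : T q u (θ a.toAdd) = 1 := by
    have h6 := h.eps_coe hp hu θ hθ a
    rw [ha] at h6
    ext v
    exact (DFunLike.congr_fun h6 v).symm
  rw [h5] at h3
  change (u' - u') - (u' - u') = _ at h3
  rw [sub_self, hyp.pair, mul_one] at h3
  have h4 := (smul_eq_zero.1 h3.symm).resolve_right hu0
  have h2K : (2 : K) ≠ 0 := CharP.cast_ne_zero_of_ne_of_prime K Nat.prime_two hp
  exact neg_ne_zero.2 (mul_ne_zero h2K h1) h4

/-- The set generating the invariant forms. -/
theorem Over.gen (h : Over q Q H) {p : ℕ} [Fintype K] [FiniteDimensional F V]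
    [Fact p.Prime] [CharP F p] (hp : p ≠ 2) (hK : 3 ≤ finrank K V)
    {u : V} (hu : q u = 0) (hu0 : u ≠ 0)
    {A : Type*} [AddCommGroup A] (θ : A →+ V) (hθ : ∀ a, polar q u (θ a) = 0) (B : BF F V)
    (S : AddSubgroup (BF F V))
    (hS : ∀ m : ↥H, (m : V ≃ₗ[F] V) ∈ NK F K V → ∀ x : BF F V, prB K x = x →
      (∀ a, rhoB F V (h.eps hp hu θ hθ a) x = x) → rhoB F V m x ∈ S) :
    prB K B ∈ S := by
  have hT := h.tr
  have hq := h.nondeg
  have hcK : CharP K p := charP_of_injective_algebraMap (algebraMap F K).injective p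
  have h2K : (2 : K) ≠ 0 := CharP.cast_ne_zero_of_ne_of_prime K Nat.prime_two hp
  have h2 : (2 : F) ≠ 0 := CharP.cast_ne_zero_of_ne_of_prime F Nat.prime_two hp
  obtain ⟨u', hyp⟩ := exists_hyp hq hu hu0
  refine prB_mem_of h2K hT h.good.nondeg hK hyp ?_ B
  intro u₁ hu₁ x hx
  by_cases hu₁0 : u₁ = 0
  · rw [hu₁0]
    have : BB q F (0 : V) x = 0 := by
      have := BB_self (q := q) (F := F) x 0
      rwa [zero_smul] at this
    rw [this]
    exact S.zero_mem
  have hfix : ∀ (c : K) (x : V), polar q u x = 0 → ∀ a,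
      rhoB F V (h.eps hp hu θ hθ a) (BB q F (c • u) x) = BB q F (c • u) x := by
    intro c x hx a
    rw [h.eps_coe, BB_res _ (T_mem_O _ _), map_smul, T_apply_self hu (hθ _),
      T_apply_perp hu (hθ _) hx, BB_sub_smul]
  obtain ⟨z, w, c, hc, hmove⟩ := exists_T_move hq hK hu hu₁ hu0 hu₁0
  have h7 : ((⟨res F (T q z w), h.T_mem hp z w⟩ : ↥H)⁻¹ : V ≃ₗ[F] V) ∈ NK F K V :=
    (NK F K V).inv_mem (res_mem_NK _)
  have h8 := hS (⟨res F (T q z w), h.T_mem hp z w⟩ : ↥H)⁻¹ h7 (BB q F (c • u) (T q z w x))
    (prB_of h2 (BB_balanced _ _) (BB_skew _ _)) (hfix c _ (by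
      have h3 := polar_map (T_mem_O z w) u₁ x (Q := q)
      rw [hmove, hx, polar_smul_left, smul_eq_mul] at h3
      exact (mul_eq_zero.1 h3).resolve_left hc))
  have h4 : rhoB F V (res F (T q z w)) (BB q F u₁ x) = BB q F (c • u) (T q z w x) := by
    rw [BB_res _ (T_mem_O _ _), hmove]
  rw [← h4] at h8
  have h5 : (((⟨res F (T q z w), h.T_mem hp z w⟩ : ↥H)⁻¹ : ↥H) : V ≃ₗ[F] V) =
      (res F (T q z w))⁻¹ := rfl
  rw [h5] at h8
  have h6 : rhoB F V (res F (T q z w))⁻¹ * rhoB F V (res F (T q z w)) = 1 := by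
    rw [← map_mul, inv_mul_cancel, map_one]
  have h9 : rhoB F V (res F (T q z w))⁻¹ (rhoB F V (res F (T q z w)) (BB q F u₁ x)) =
      BB q F u₁ x := DFunLike.congr_fun h6 (BB q F u₁ x)
  rwa [h9] at h8

end Cfsg.Agent.H923.KF
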