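import Mathlib
import Cfsg.Agent.H923.ThinGen

/-!
Overgroups of `N_Ω(K)`, thin case, conclusion.
-/

set_option autoImplicit false
set_option linter.unusedSectionVars false
set_option linter.style.haveILetI false

namespace Cfsg.Agent.H923.KF

open QuadraticMap Module Cfsg.Agent.LieClassical.OrthCore Cfsg.Agent.LieClassical.OrthTrans
  Cfsg.Agent.LieClassical.OrthSimple Cfsg.Agent.ClassicalGeometry.OrthAutBasic
open scoped commutatorElement

variable {F K V : Type*} [Field F] [Field K] [Algebra F K] [AddCommGroup V] [Module F V]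
  [Module K V] [IsScalarTower F K V] {q : QuadraticForm K V} {Q : QuadraticForm F V}

variable {H : Subgroup (V ≃ₗ[F] V)}

theorem rhoB_add (g : V ≃ₗ[F] V) (B B' : BF F V) :
    rhoB F V g (B + B') = rhoB F V g B + rhoB F V g B' := by
  ext v w
  rfl

theorem prB_add [Fintype K] (B B' : BF F V) : prB K (B + B') = prB K B + prB K B' := by
  ext v w
  rw [LinearMap.add_apply, LinearMap.add_apply, prB_apply, prB_apply, prB_apply, av_apply, av_apply,
    av_apply, av_apply, av_apply, av_apply]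
  simp only [LinearMap.add_apply, Finset.sum_add_distrib]
  ring

/-- The trace lemma for bilinear forms. -/
theorem green_BF {G F V : Type*} [Field F] [AddCommGroup V] [Module F V] [Group G] [Finite G]
    [Finite (BF F V)] {p : ℕ} [Fact p.Prime] (ρ : G → BF F V → BF F V)
    (hadd : ∀ g x y, ρ g (x + y) = ρ g x + ρ g y)
    (hone : ∀ x, ρ 1 x = x) (hmul : ∀ g h x, ρ (g * h) x = ρ g (ρ h x))
    (M E : Subgroup G) [Fintype E]
    (hE : IsPGroup p E) (hp : ∀ x : BF F V, p • x = 0)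
    (h1 : ∀ g : G, g ∉ M → ∀ y ∈ E, g⁻¹ * y * g ∈ M → y = 1) (hEM : E ≤ M)
    (h0 : ∀ x : BF F V, ∑ y : E, ρ (y : G) x = 0)
    (π : BF F V → BF F V) (hπadd : ∀ x y, π (x + y) = π x + π y) (hπ : ∀ x, π (π x) = π x)
    (hπM : ∀ m ∈ M, ∀ x, π (ρ m x) = ρ m (π x))
    (h2 : ∀ S : AddSubgroup (BF F V),
      (∀ m ∈ M, ∀ x, π x = x → (∀ y ∈ E, ρ y x = x) → ρ m x ∈ S) → ∀ x, π x ∈ S)
    (g : G) (x : BF F V) : π (ρ g (π x)) = ρ g (π x) :=
  green_fun ρ hadd hone hmul M E hE hp h1 hEM h0 π hπadd hπ hπM h2 g x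

/-- **Thin overgroups normalise `K`.** -/
theorem Over.le_NK_of_thin [Fintype K] [FiniteDimensional F V] (h : Over q Q H) {p : ℕ}
    [Fact p.Prime] [CharP F p] (hp : p ≠ 2)
    (hr : (finrank F K).Prime) (hK : 3 ≤ finrank K V)
    (hex : ¬ (p = 3 ∧ finrank F K = 3 ∧ finrank K V = 3))
    {u : V} (hu : q u = 0) (hu0 : u ≠ 0) (hthin : Thin q H u)
    {A : Type*} [AddCommGroup A] [Fintype A] (θ : A →+ V) (hθ : ∀ a, polar q u (θ a) = 0)
    (hθq : ∀ a, a ≠ 0 → q (θ a) ≠ 0)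
    (h0 : ∀ (B : BF F V) (v w : V), ∑ a : A, B (T q u (θ a) v) (T q u (θ a) w) = 0) :
    H ≤ NK F K V := by
  classical
  have hfF : Finite F := finiteF F K
  have hq := h.nondeg
  have h2 : (2 : F) ≠ 0 := CharP.cast_ne_zero_of_ne_of_prime F Nat.prime_two hp
  have hcK : CharP K p := charP_of_injective_algebraMap (algebraMap F K).injective p
  have hfX : Finite (BF F V) := Module.finite_of_finite F
  have hfV : Finite V := Module.finite_of_finite F
  have hfE : Finite (V ≃ₗ[F] V) := Finite.of_injective (fun g => (g : V → V)) (by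
    intro a b hab
    ext v
    exact congrFun hab v)
  have hpX : ∀ B : BF F V, p • B = 0 := by
    intro B
    rw [← Nat.cast_smul_eq_nsmul F, CharP.cast_eq_zero, zero_smul]
  have hpA : ∀ a : A, p • a = 0 := by
    intro a
    by_contra hne
    apply hθq _ hne
    rw [map_nsmul, ← Nat.cast_smul_eq_nsmul K, CharP.cast_eq_zero, zero_smul,
      QuadraticMap.map_zero]
  have hE : IsPGroup p (h.eps hp hu θ hθ).range := by
    rintro ⟨_, a, rfl⟩
    refine ⟨1, ?_⟩
    apply Subtype.ext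
    change (h.eps hp hu θ hθ a) ^ p ^ 1 = 1
    rw [pow_one, ← map_pow]
    have : a ^ p = 1 := by
      change Multiplicative.ofAdd (p • a.toAdd) = 1
      rw [hpA]
      rfl
    rw [this, map_one]
  have hEM : (h.eps hp hu θ hθ).range ≤ (NK F K V).subgroupOf H := by
    rintro _ ⟨a, rfl⟩
    exact res_mem_NK _
  have h1 : ∀ g : ↥H, g ∉ (NK F K V).subgroupOf H → ∀ y ∈ (h.eps hp hu θ hθ).range,
      g⁻¹ * y * g ∈ (NK F K V).subgroupOf H → y = 1 := by
    rintro g hg _ ⟨a, rfl⟩ hy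
    by_contra hne
    apply hg
    have ha : a.toAdd ≠ 0 := by
      intro h0
      apply hne
      have : a = 1 := h0
      rw [this, map_one]
    exact h.star hp hr hK hex hu hu0 hthin (hθ a.toAdd) (hθq _ ha) g.2 hy
  have h0' : ∀ B : BF F V, ∑ y : (h.eps hp hu θ hθ).range,
      rhoB F V ((y : ↥H) : V ≃ₗ[F] V) B = 0 := by
    intro B
    have e1 : ∑ y : (h.eps hp hu θ hθ).range, rhoB F V ((y : ↥H) : V ≃ₗ[F] V) B =
        ∑ a : Multiplicative A, rhoB F V ((h.eps hp hu θ hθ a : ↥H) : V ≃ₗ[F] V) B :=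
      (Fintype.sum_equiv (MonoidHom.ofInjective (h.eps_injective hp hu hu0 θ hθ hθq)).toEquiv
        _ _ fun a => rfl).symm
    rw [e1]
    ext v w
    rw [LinearMap.sum_apply, LinearMap.sum_apply, LinearMap.zero_apply, LinearMap.zero_apply]
    have e2 : ∀ a : Multiplicative A, rhoB F V ((h.eps hp hu θ hθ a : ↥H) : V ≃ₗ[F] V) B v w =
        B (T q u (θ (-a.toAdd)) v) (T q u (θ (-a.toAdd)) w) := by
      intro a
      change B ((((h.eps hp hu θ hθ a)⁻¹ : ↥H) : V ≃ₗ[F] V) v)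
        ((((h.eps hp hu θ hθ a)⁻¹ : ↥H) : V ≃ₗ[F] V) w) = _
      rw [← map_inv]
      rfl
    rw [Finset.sum_congr rfl fun a _ => e2 a]
    rw [← h0 B v w]
    exact Fintype.sum_equiv ((Multiplicative.toAdd).trans (Equiv.neg A)) _ _ fun a => rfl
  intro g hg
  apply mem_NK_of_preserves hq h2 (by omega : 2 ≤ finrank K V)
  intro B
  refine green_BF (G := ↥H) (fun g B => rhoB F V (g : V ≃ₗ[F] V) B)
    (fun g B B' => rhoB_add _ _ _) (fun B => ?_) (fun g g' B => ?_)
    ((NK F K V).subgroupOf H)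
    (h.eps hp hu θ hθ).range hE hpX h1 hEM h0' (prB K) prB_add
    (prB_prB h2) (fun m hm B => prB_rho hm B) ?_ ⟨g⁻¹, H.inv_mem hg⟩ B
  · change rhoB F V (1 : V ≃ₗ[F] V) B = B
    rw [map_one]
    rfl
  · change rhoB F V ((g : V ≃ₗ[F] V) * (g' : V ≃ₗ[F] V)) B = _
    rw [map_mul]
    rfl
  · intro S hS B
    refine h.gen hp hK hu hu0 θ hθ B S ?_
    intro m hm x hx1 hx2
    refine hS m hm x hx1 ?_
    rintro _ ⟨a, rfl⟩
    exact hx2 a

end Cfsg.Agent.H923.KF
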