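import Mathlib
import Cfsg.Agent.H923.ThinEnd

/-!
Sums over a group of `K`-transvections of bilinear expressions vanish (Chevalley-Warning).
-/

set_option autoImplicit false
set_option linter.unusedSectionVars false

namespace Cfsg.Agent.H923.KF

open QuadraticMap Module Cfsg.Agent.LieClassical.OrthCore Cfsg.Agent.LieClassical.OrthTrans
  Cfsg.Agent.LieClassical.OrthSimple Cfsg.Agent.ClassicalGeometry.OrthAutBasic

section Poly

variable {F σ : Type*} [Field F]

/-- Functions given by polynomials of degree at most `d`. -/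
def PolyLE (d : ℕ) (f : (σ → F) → F) : Prop :=
  ∃ P : MvPolynomial σ F, P.totalDegree ≤ d ∧ ∀ x, MvPolynomial.eval x P = f x

theorem PolyLE.congr {d : ℕ} {f g : (σ → F) → F} (hf : PolyLE d f) (h : ∀ x, f x = g x) :
    PolyLE d g := by
  obtain ⟨P, h1, h2⟩ := hf
  exact ⟨P, h1, fun x => by rw [h2, h]⟩

theorem PolyLE.const (d : ℕ) (c : F) : PolyLE d (fun _ : σ → F => c) :=
  ⟨MvPolynomial.C c, by rw [MvPolynomial.totalDegree_C]; exact Nat.zero_le d, fun x => by
    rw [MvPolynomial.eval_C]⟩

theorem PolyLE.coord (i : σ) : PolyLE 1 (fun x : σ → F => x i) :=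
  ⟨MvPolynomial.X i, by rw [MvPolynomial.totalDegree_X], fun x => by rw [MvPolynomial.eval_X]⟩

theorem PolyLE.mono {d d' : ℕ} {f : (σ → F) → F} (hf : PolyLE d f) (h : d ≤ d') :
    PolyLE d' f := by
  obtain ⟨P, h1, h2⟩ := hf
  exact ⟨P, h1.trans h, h2⟩

theorem PolyLE.add {d : ℕ} {f g : (σ → F) → F} (hf : PolyLE d f) (hg : PolyLE d g) :
    PolyLE d (fun x => f x + g x) := by
  obtain ⟨P, h1, h2⟩ := hf
  obtain ⟨R, h3, h4⟩ := hg
  refine ⟨P + R, (MvPolynomial.totalDegree_add P R).trans (max_le h1 h3), fun x => ?_⟩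
  rw [map_add, h2, h4]

theorem PolyLE.mul {d e : ℕ} {f g : (σ → F) → F} (hf : PolyLE d f) (hg : PolyLE e g) :
    PolyLE (d + e) (fun x => f x * g x) := by
  obtain ⟨P, h1, h2⟩ := hf
  obtain ⟨R, h3, h4⟩ := hg
  refine ⟨P * R, (MvPolynomial.totalDegree_mul P R).trans (Nat.add_le_add h1 h3), fun x => ?_⟩
  rw [map_mul, h2, h4]

theorem PolyLE.smul {d : ℕ} {f : (σ → F) → F} (hf : PolyLE d f) (c : F) :
    PolyLE d (fun x => c * f x) := by
  have := (PolyLE.const (σ := σ) 0 c).mul hf
  rwa [zero_add] at this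

theorem PolyLE.sum {κ : Type*} (s : Finset κ) {d : ℕ} {f : κ → (σ → F) → F}
    (hf : ∀ i ∈ s, PolyLE d (f i)) : PolyLE d (fun x => ∑ i ∈ s, f i x) := by
  classical
  induction s using Finset.induction_on with
  | empty => exact (PolyLE.const d 0).congr fun x => by rw [Finset.sum_empty]
  | insert a s ha ih =>
    refine ((hf a (Finset.mem_insert_self a s)).add
      (ih fun i hi => hf i (Finset.mem_insert_of_mem hi))).congr fun x => ?_
    rw [Finset.sum_insert ha]

theorem PolyLE.sum_eq_zero [Fintype F] [Fintype σ] [DecidableEq σ] {d : ℕ} {f : (σ → F) → F}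
    (hf : PolyLE d f)
    (hd : d < (Fintype.card F - 1) * Fintype.card σ) : ∑ x, f x = 0 := by
  obtain ⟨P, h1, h2⟩ := hf
  rw [← MvPolynomial.sum_eval_eq_zero P (lt_of_le_of_lt h1 hd)]
  exact Finset.sum_congr rfl fun x _ => (h2 x).symm

/-- Vector valued version: all linear functionals are polynomial. -/
def PolyV {V : Type*} [AddCommGroup V] [Module F V] (d : ℕ) (f : (σ → F) → V) : Prop :=
  ∀ φ : V →ₗ[F] F, PolyLE d (fun x => φ (f x))

variable {V W : Type*} [AddCommGroup V] [Module F V] [AddCommGroup W] [Module F W]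

theorem PolyV.congr {d : ℕ} {f g : (σ → F) → V} (hf : PolyV d f) (h : ∀ x, f x = g x) :
    PolyV d g := fun φ => (hf φ).congr fun x => by rw [h]

theorem PolyV.const (d : ℕ) (c : V) : PolyV d (fun _ : σ → F => c) := fun φ =>
  PolyLE.const d (φ c)

theorem PolyV.mono {d d' : ℕ} {f : (σ → F) → V} (hf : PolyV d f) (h : d ≤ d') :
    PolyV d' f := fun φ => (hf φ).mono h

theorem PolyV.add {d : ℕ} {f g : (σ → F) → V} (hf : PolyV d f) (hg : PolyV d g) :
    PolyV d (fun x => f x + g x) := fun φ => ((hf φ).add (hg φ)).congr fun x => by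
  rw [map_add]

theorem PolyV.map {d : ℕ} {f : (σ → F) → V} (hf : PolyV d f) (L : V →ₗ[F] W) :
    PolyV d (fun x => L (f x)) := fun φ => hf (φ.comp L)

theorem PolyV.sub {d : ℕ} {f g : (σ → F) → V} (hf : PolyV d f) (hg : PolyV d g) :
    PolyV d (fun x => f x - g x) := fun φ => ((hf φ).add ((hg φ).smul (-1))).congr fun x => by
  rw [map_sub]; ring

/-- A bilinear map applied to polynomial functions. -/
theorem PolyLE.bilin [FiniteDimensional F V] [FiniteDimensional F W] {d e : ℕ}
    {f : (σ → F) → V} {g : (σ → F) → W} (hf : PolyV d f) (hg : PolyV e g)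
    (B : V →ₗ[F] W →ₗ[F] F) : PolyLE (d + e) (fun x => B (f x) (g x)) := by
  let b := Module.finBasis F V
  let c := Module.finBasis F W
  have h : ∀ x, B (f x) (g x) = ∑ i, ∑ j, B (b i) (c j) * (b.coord i (f x) * c.coord j (g x)) := by
    intro x
    conv_lhs => rw [← b.sum_repr (f x), map_sum, LinearMap.sum_apply]
    refine Finset.sum_congr rfl fun i _ => ?_
    conv_lhs => rw [← c.sum_repr (g x), map_sum]
    refine Finset.sum_congr rfl fun j _ => ?_
    rw [map_smul, map_smul, LinearMap.smul_apply, smul_eq_mul, smul_eq_mul, Basis.coord_apply,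
      Basis.coord_apply]
    ring
  refine PolyLE.congr ?_ fun x => (h x).symm
  refine PolyLE.sum _ fun i _ => PolyLE.sum _ fun j _ => ?_
  exact ((hf (b.coord i)).mul (hg (c.coord j))).smul _

theorem PolyV.bilin {X : Type*} [AddCommGroup X] [Module F X] [FiniteDimensional F V]
    [FiniteDimensional F W] {d e : ℕ}
    {f : (σ → F) → V} {g : (σ → F) → W} (hf : PolyV d f) (hg : PolyV e g)
    (B : V →ₗ[F] W →ₗ[F] X) : PolyV (d + e) (fun x => B (f x) (g x)) := fun φ =>
  PolyLE.bilin hf hg (B.compr₂ φ)

theorem PolyV.lin [Fintype σ] (L : (σ → F) →ₗ[F] V) : PolyV 1 (fun x : σ → F => L x) := by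
  classical
  intro φ
  have h : ∀ x : σ → F, φ (L x) = ∑ i, (φ (L (Pi.single i 1))) * x i := by
    intro x
    have h1 : x = ∑ i, x i • (Pi.single i (1 : F) : σ → F) := by
      funext j
      rw [Finset.sum_apply]
      simp [Pi.single_apply]
    conv_lhs => rw [h1, map_sum, map_sum]
    refine Finset.sum_congr rfl fun i _ => ?_
    rw [map_smul, map_smul, smul_eq_mul, mul_comm]
  refine PolyLE.congr ?_ fun x => (h x).symm
  exact PolyLE.sum _ fun i _ => (PolyLE.coord i).smul _

end Poly

section SumT

variable {F K V : Type*} [Field F] [Field K] [Algebra F K] [AddCommGroup V] [Module F V]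
  [Module K V] [IsScalarTower F K V] {q : QuadraticForm K V}

/-- **Sums over transvection groups.** -/
theorem sum_T_eq_zero [Fintype F] [FiniteDimensional F V] [FiniteDimensional F K]
    (h2 : (2 : K) ≠ 0) {A : Type*}
    [AddCommGroup A] [Module F A] [FiniteDimensional F A] [Fintype A]
    (hA : 4 < (Fintype.card F - 1) * finrank F A) {u : V} (hu : q u = 0)
    (θ : A →ₗ[F] V) (hθ : ∀ a, polar q u (θ a) = 0) (B : BF F V) (v w : V) :
    ∑ a : A, B (T q u (θ a) v) (T q u (θ a) w) = 0 := by
  classical
  let b := Module.finBasis F A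
  let e : A ≃ₗ[F] (Fin (finrank F A) → F) := b.equivFun
  have h1 : ∑ a : A, B (T q u (θ a) v) (T q u (θ a) w) =
      ∑ x : Fin (finrank F A) → F, B (T q u (θ (e.symm x)) v) (T q u (θ (e.symm x)) w) :=
    (Fintype.sum_equiv e.symm.toEquiv _ _ fun x => rfl).symm
  rw [h1]
  let L : (Fin (finrank F A) → F) →ₗ[F] V := θ.comp e.symm.toLinearMap
  have hL : ∀ x, L x = θ (e.symm x) := fun x => rfl
  -- the polar form as a bilinear map over `F`
  let P : V →ₗ[F] V →ₗ[F] K := LinearMap.mk₂ F (fun v w => polar q v w)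
    (fun a b c => polar_add_left q a b c)
    (fun r a c => by
      rw [← algebraMap_smul K r a, polar_smul_left, smul_eq_mul, Algebra.smul_def r])
    (fun a b c => polar_add_right q a b c)
    (fun r a c => by
      rw [← algebraMap_smul K r c, polar_smul_right, smul_eq_mul, Algebra.smul_def r])
  have hP : ∀ v w, P v w = polar q v w := fun v w => rfl
  let S : K →ₗ[F] V := (LinearMap.toSpanSingleton K V u).restrictScalars F
  have hS : ∀ c, S c = c • u := fun c => rfl
  have hLp : PolyV 1 (fun x : Fin (finrank F A) → F => L x) := PolyV.lin L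
  have hT : ∀ v : V, PolyV 2 (fun x : Fin (finrank F A) → F => T q u (θ (e.symm x)) v) := by
    intro v
    have h3 : PolyV 2 (fun x : Fin (finrank F A) → F => v + polar q u v • L x -
        polar q (L x) v • u - (((2 : K)⁻¹ * polar q (L x) (L x)) * polar q u v) • u) := by
      refine PolyV.sub (PolyV.sub (PolyV.add (PolyV.const 2 v) ?_) ?_) ?_
      · exact (hLp.map (Algebra.lsmul F F V (polar q u v))).mono one_le_two
      · exact (hLp.map (S.comp (P.flip v))).mono one_le_two
      · have h4 : PolyV 2 (fun x : Fin (finrank F A) → F => P (L x) (L x)) := hLp.bilin hLp P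
        refine (h4.map (S.comp (LinearMap.mulLeft F ((2 : K)⁻¹ * polar q u v)))).congr
          fun x => ?_
        rw [LinearMap.comp_apply, hS, hP, LinearMap.mulLeft_apply]
        congr 1
        ring
    refine h3.congr fun x => ?_
    rw [T_apply hu (hθ _), ← hL, polar_self', ← mul_assoc, inv_mul_cancel₀ h2, one_mul]
  refine (PolyLE.bilin (hT v) (hT w) B).sum_eq_zero ?_
  rw [Fintype.card_fin]
  exact hA

end SumT

section Thin

variable {F K V : Type*} [Field F] [Field K] [Algebra F K] [AddCommGroup V] [Module F V]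
  [Module K V] [IsScalarTower F K V] {q : QuadraticForm K V} {Q : QuadraticForm F V}
  {H : Subgroup (V ≃ₗ[F] V)}

/-- An anisotropic plane orthogonal to a singular vector, in dimension at least `5`. -/
theorem exists_aniso [Finite K] (h2 : (2 : K) ≠ 0) (hG : Good q) (hK : 5 ≤ finrank K V)
    {u : V} (hu : q u = 0) (hu0 : u ≠ 0) :
    ∃ x₀ x₁ : V, polar q u x₀ = 0 ∧ polar q u x₁ = 0 ∧
      ∀ s t : K, q (s • x₀ + t • x₁) = 0 → s = 0 ∧ t = 0 := by
  obtain ⟨u', hyp⟩ := exists_hyp hG.nondeg hu hu0
  obtain ⟨z, w, hzw, huz, huw, hu'z, hu'w⟩ := hG.exists_hyp2 hyp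
  -- a nonsingular vector orthogonal to everything
  obtain ⟨x, hx, hux, hzx, hwx⟩ : ∃ x : V, q x ≠ 0 ∧ polar q u x = 0 ∧ polar q z x = 0 ∧
      polar q w x = 0 := by
    obtain ⟨a, ha0, ha⟩ := exists_perp_ne (Q := q) ![u, u', z, w] (by omega)
    have h0 : polar q u a = 0 := ha 0
    have h1 : polar q u' a = 0 := ha 1
    have h3 : polar q z a = 0 := ha 2
    have h4 : polar q w a = 0 := ha 3
    by_cases hqa : q a = 0
    · obtain ⟨b, hb⟩ := hG.nondeg.exists_polar_eq ha0 1
      -- project `b`
      set c := b - polar q u' b • u - polar q u b • u' - polar q w b • z - polar q z b • w with hc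
      have hzu : polar q z u = 0 := by rw [polar_comm]; exact huz
      have hwu : polar q w u = 0 := by rw [polar_comm]; exact huw
      have hzu' : polar q z u' = 0 := by rw [polar_comm]; exact hu'z
      have hwu' : polar q w u' = 0 := by rw [polar_comm]; exact hu'w
      have hau : polar q a u = 0 := by rw [polar_comm]; exact h0
      have hau' : polar q a u' = 0 := by rw [polar_comm]; exact h1
      have haz : polar q a z = 0 := by rw [polar_comm]; exact h3
      have haw : polar q a w = 0 := by rw [polar_comm]; exact h4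
      have e1 : polar q u c = 0 := by
        rw [hc]
        simp only [polar_sub_right, polar_smul_right, smul_eq_mul, huz, huw, hyp.pair,
          polar_self_of_sing hu]
        ring
      have e3 : polar q z c = 0 := by
        rw [hc]
        simp only [polar_sub_right, polar_smul_right, smul_eq_mul, hzu, hzu', hzw.pair,
          polar_self_of_sing hzw.left]
        ring
      have e4 : polar q w c = 0 := by
        rw [hc]
        simp only [polar_sub_right, polar_smul_right, smul_eq_mul, hwu, hwu', hzw.pair',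
          polar_self_of_sing hzw.right]
        ring
      have e5 : polar q a c = 1 := by
        rw [hc]
        simp only [polar_sub_right, polar_smul_right, smul_eq_mul, hau, hau', haz, haw, hb]
        ring
      by_cases hqc : q c = 0
      · refine ⟨a + c, ?_, ?_, ?_, ?_⟩
        · rw [Q_add, hqa, hqc, e5]
          simp
        · rw [polar_add_right, h0, e1, add_zero]
        · rw [polar_add_right, h3, e3, add_zero]
        · rw [polar_add_right, h4, e4, add_zero]
      · exact ⟨c, hqc, e1, e3, e4⟩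
    · exact ⟨a, hqa, h0, h3, h4⟩
  -- a nonsquare
  have hK2 : ringChar K ≠ 2 := by
    intro hc
    apply h2
    have := CharP.cast_eq_zero K (ringChar K)
    rw [hc] at this
    exact_mod_cast this
  obtain ⟨ν, hν⟩ := FiniteField.exists_nonsquare hK2
  refine ⟨x, z + (-(ν * q x)) • w, hux, ?_, ?_⟩
  · rw [polar_add_right, polar_smul_right, huz, huw, smul_zero, add_zero]
  intro s t hst
  have hxz : polar q x z = 0 := by rw [polar_comm]; exact hzx
  have hxw : polar q x w = 0 := by rw [polar_comm]; exact hwx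
  have e1 : q (s • x + t • (z + (-(ν * q x)) • w)) = (s ^ 2 - ν * t ^ 2) * q x := by
    rw [Q_add, QuadraticMap.map_smul, QuadraticMap.map_smul, Q_add, QuadraticMap.map_smul,
      hzw.left, hzw.right]
    simp only [polar_smul_left, polar_smul_right, polar_add_right, smul_eq_mul, hxz, hxw, hzw.pair]
    ring
  rw [e1] at hst
  have h3 : s ^ 2 - ν * t ^ 2 = 0 := (mul_eq_zero.1 hst).resolve_right hx
  by_cases ht : t = 0
  · subst ht
    refine ⟨?_, rfl⟩
    have : s ^ 2 = 0 := by linear_combination h3
    exact pow_eq_zero_iff (two_ne_zero) |>.1 this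
  · exfalso
    apply hν
    refine ⟨s / t, ?_⟩
    field_simp
    linear_combination -h3

/-- A nonsingular vector orthogonal to a singular one. -/
theorem exists_nonsing_perp' (hq : Nondeg q) (hK : 3 ≤ finrank K V) {u : V} (hu : q u = 0)
    (hu0 : u ≠ 0) : ∃ x, q x ≠ 0 ∧ polar q u x = 0 := by
  obtain ⟨u', hyp⟩ := exists_hyp hq hu hu0
  obtain ⟨a, b, ha1, ha2, hb1, hb2, hab⟩ := exists_perp2 hq hK hyp
  rcases exists_nonsing hab with h | h | h
  · exact ⟨a, h, ha1⟩
  · exact ⟨b, h, hb1⟩
  · exact ⟨a + b, h, by rw [polar_add_right, ha1, hb1, add_zero]⟩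

/-- **Thin overgroups normalise `K`** (numerical form). -/
theorem Over.le_NK [Finite K] [FiniteDimensional F V] (h : Over q Q H) {p : ℕ}
    [Fact p.Prime] [CharP F p] (hp : p ≠ 2)
    (hr : (finrank F K).Prime) (hK : 3 ≤ finrank K V)
    (hex : ¬ (p = 3 ∧ finrank F K = 3 ∧ finrank K V = 3))
    {u : V} (hu : q u = 0) (hu0 : u ≠ 0) (hthin : Thin q H u)
    (hpl : ¬ (Nat.card F = 3 ∧ finrank F K = 2) ∨
      ∃ x₀ x₁ : V, polar q u x₀ = 0 ∧ polar q u x₁ = 0 ∧
        ∀ s t : K, q (s • x₀ + t • x₁) = 0 → s = 0 ∧ t = 0) :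
    H ≤ NK F K V := by
  classical
  have := Fintype.ofFinite K
  have hfF : Finite F := finiteF F K
  have := Fintype.ofFinite F
  have hfK : FiniteDimensional F K := Module.Finite.of_finite
  have hcK : CharP K p := charP_of_injective_algebraMap (algebraMap F K).injective p
  have h2K : (2 : K) ≠ 0 := CharP.cast_ne_zero_of_ne_of_prime K Nat.prime_two hp
  have hcF : 3 ≤ Fintype.card F := by
    obtain ⟨n, hn⟩ := FiniteField.card F p
    have h3 := (Fact.out : p.Prime).two_le
    have h4 : p ≤ Fintype.card F := by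
      rw [hn.2]
      exact Nat.le_self_pow n.pos.ne' p
    omega
  have hr2 := hr.two_le
  rcases hpl with hpl | ⟨x₀, x₁, h0, h1, han⟩
  · obtain ⟨x, hx, hux⟩ := exists_nonsing_perp' h.nondeg hK hu hu0
    let θ : K →ₗ[F] V := (LinearMap.toSpanSingleton K V x).restrictScalars F
    have hθ : ∀ a, polar q u (θ a) = 0 := by
      intro a
      change polar q u (a • x) = 0
      rw [polar_smul_right, hux, smul_zero]
    refine h.le_NK_of_thin hp hr hK hex hu hu0 hthin (θ : K →+ V) hθ ?_ ?_
    · intro a ha
      change q (a • x) ≠ 0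
      rw [QuadraticMap.map_smul]
      exact mul_ne_zero (mul_ne_zero ha ha) hx
    · refine sum_T_eq_zero h2K ?_ hu θ hθ
      by_cases hr3 : 3 ≤ finrank F K
      · nlinarith [Nat.sub_add_cancel (show 1 ≤ Fintype.card F by omega)]
      · have hr' : finrank F K = 2 := by omega
        have hc' : Fintype.card F ≠ 3 := by
          intro hc
          apply hpl
          rw [Nat.card_eq_fintype_card]
          exact ⟨hc, hr'⟩
        rw [hr']
        omega
  · let θ : K × K →ₗ[F] V := LinearMap.coprod
      ((LinearMap.toSpanSingleton K V x₀).restrictScalars F)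
      ((LinearMap.toSpanSingleton K V x₁).restrictScalars F)
    have hθv : ∀ a : K × K, θ a = a.1 • x₀ + a.2 • x₁ := fun a => rfl
    have hθ : ∀ a, polar q u (θ a) = 0 := by
      intro a
      rw [hθv, polar_add_right, polar_smul_right, polar_smul_right, h0, h1, smul_zero, smul_zero,
        add_zero]
    refine h.le_NK_of_thin hp hr hK hex hu hu0 hthin (θ : K × K →+ V) hθ ?_ ?_
    · intro a ha hq0
      apply ha
      have := han a.1 a.2 hq0
      exact Prod.ext this.1 this.2
    · refine sum_T_eq_zero h2K ?_ hu θ hθ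
      rw [Module.finrank_prod]
      nlinarith [Nat.sub_add_cancel (show 1 ≤ Fintype.card F by omega)]

end Thin

end Cfsg.Agent.H923.KF
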