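import Mathlib
import Cfsg.Agent.H923.PolyZero

/-!
Overgroups of `N_Ω(K)` which are not thin: elements trivial on `u^⊥`, the torus, and a parity
argument (the determinant of an isometry which stabilises `K u` and is trivial on the complement
of the hyperbolic `K`-plane is one).
-/

set_option autoImplicit false
set_option linter.unusedSectionVars false

namespace Cfsg.Agent.H923.KF

open QuadraticMap Module Cfsg.Agent.LieClassical.OrthCore Cfsg.Agent.LieClassical.OrthTrans
  Cfsg.Agent.LieClassical.OrthSimple Cfsg.Agent.ClassicalGeometry.OrthAutBasic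
open scoped commutatorElement

section Det

variable {F V : Type*} [Field F] [AddCommGroup V] [Module F V] {Q : QuadraticForm F V}
  [FiniteDimensional F V]

/-- Adjoint maps have the same determinant. -/
theorem det_adjoint (hQ : Nondeg Q) (A C : V →ₗ[F] V)
    (h : ∀ v w, polar Q (A v) w = polar Q v (C w)) : LinearMap.det A = LinearMap.det C := by
  have hinj : Function.Injective (polarBilin Q : V →ₗ[F] Module.Dual F V) := by
    rw [injective_iff_map_eq_zero]
    intro x hx
    apply hQ
    intro y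
    exact LinearMap.congr_fun hx y
  let Φ : V ≃ₗ[F] Module.Dual F V := LinearEquiv.ofBijective (polarBilin Q)
    ⟨hinj, (LinearMap.injective_iff_surjective_of_finrank_eq_finrank
      (Subspace.dual_finrank_eq (K := F) (V := V)).symm).1 hinj⟩
  have h1 : A.dualMap = (Φ : V →ₗ[F] Module.Dual F V) ∘ₗ C ∘ₗ
      (Φ.symm : Module.Dual F V →ₗ[F] V) := by
    apply LinearMap.ext
    intro φ
    obtain ⟨w, rfl⟩ := Φ.surjective φ
    apply LinearMap.ext
    intro v
    rw [LinearMap.comp_apply, LinearMap.comp_apply, LinearEquiv.coe_coe, LinearEquiv.coe_coe,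
      LinearEquiv.symm_apply_apply, LinearMap.dualMap_apply]
    change polar Q w (A v) = polar Q (C w) v
    rw [polar_comm, h, polar_comm]
  rw [← LinearMap.det_dualMap A, h1, LinearMap.det_conj]

theorem det_of_mem_E (hG : Good Q) {g : V ≃ₗ[F] V} (hg : g ∈ E Q) :
    LinearMap.det (g : V →ₗ[F] V) = 1 := by
  rw [← hG.commutator_eq_E] at hg
  have h1 : ⁅O Q, O Q⁆ ≤ (LinearEquiv.det (R := F) (M := V)).ker := by
    rw [Subgroup.commutator_le]
    intro a _ b _
    rw [MonoidHom.mem_ker, map_commutatorElement, commutatorElement_eq_one_iff_mul_comm, mul_comm]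
  have h2 : LinearEquiv.det g = 1 := h1 hg
  have h3 := congrArg Units.val h2
  rwa [LinearEquiv.coe_det] at h3

end Det

variable {F K V : Type*} [Field F] [Field K] [Algebra F K] [AddCommGroup V] [Module F V]
  [Module K V] [IsScalarTower F K V] {q : QuadraticForm K V} {Q : QuadraticForm F V}
  {H : Subgroup (V ≃ₗ[F] V)} [Finite K] [FiniteDimensional F V]

/-- The determinant of an isometry stabilising `K u`, trivial on the orthogonal complement of a
hyperbolic `K`-plane. -/
theorem det_eq_one_of_line (hT : IsTr q Q) (hG : Good Q) {p : ℕ} [Fact p.Prime] [CharP F p]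
    (hp : p ≠ 2) {u u' : V} (hyp : Hyp q u u') {h : V ≃ₗ[F] V} (hhO : h ∈ O Q)
    (hU : ∀ c : K, ∃ d : K, h (c • u) = d • u)
    (hW : ∀ w, polar q u w = 0 → polar q u' w = 0 → h w = w) :
    LinearMap.det (h : V →ₗ[F] V) = 1 := by
  -- the projections
  let P : V →ₗ[F] V := ((polarBilin q u').smulRight u).restrictScalars F
  let P' : V →ₗ[F] V := ((polarBilin q u).smulRight u').restrictScalars F
  have hP : ∀ v, P v = polar q u' v • u := fun v => rfl
  have hP' : ∀ v, P' v = polar q u v • u' := fun v => rfl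
  have hinv : ∀ v, h (h⁻¹ v) = v := fun v => h.apply_symm_apply v
  have hinv' : ∀ v, h⁻¹ (h v) = v := fun v => h.symm_apply_apply v
  have hu0 : u ≠ 0 := hyp.left_ne
  have hsurj := line_surj hu0 hU
  have hU' : ∀ c : K, ∃ d : K, h⁻¹ (c • u) = d • u := by
    intro c
    obtain ⟨d, hd⟩ := hsurj c
    exact ⟨d, by rw [← hd, hinv']⟩
  have hPu : ∀ c : K, P (c • u) = c • u := by
    intro c
    rw [hP, polar_smul_right, hyp.pair', smul_eq_mul, mul_one]
  have hPh : ∀ v, P (h (P v)) = h (P v) := by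
    intro v
    rw [hP v]
    obtain ⟨d, hd⟩ := hU (polar q u' v)
    rw [hd, hPu]
  have hPh' : ∀ v, P (h⁻¹ (P v)) = h⁻¹ (P v) := by
    intro v
    rw [hP v]
    obtain ⟨d, hd⟩ := hU' (polar q u' v)
    rw [hd, hPu]
  have hPP : ∀ v, P (P v) = P v := fun v => by rw [hP v, hPu]
  have hadj : ∀ v w, polar Q (P v) w = polar Q v (P' w) := by
    intro v w
    rw [hT.polar, hT.polar, hP, hP', polar_smul_left, polar_smul_right, polar_comm q v u',
      smul_eq_mul, smul_eq_mul, mul_comm]
  have hhadj : ∀ v w, polar Q (h⁻¹ v) w = polar Q v (h w) := by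
    intro v w
    rw [← polar_map hhO, hinv]
  have hPs : ∀ v, Q (P v) = 0 := fun v => hT.sing_smul hyp.left _
  have hPs' : ∀ v, Q (P' v) = 0 := fun v => hT.sing_smul hyp.right _
  -- the maps
  let A : V →ₗ[F] V := LinearMap.id + ((h : V →ₗ[F] V) - LinearMap.id) ∘ₗ P
  let A' : V →ₗ[F] V := LinearMap.id + (((h⁻¹ : V ≃ₗ[F] V) : V →ₗ[F] V) - LinearMap.id) ∘ₗ P
  let C : V →ₗ[F] V := LinearMap.id + P' ∘ₗ ((h : V →ₗ[F] V) - LinearMap.id)
  have hA : ∀ v, A v = v + (h (P v) - P v) := fun v => rfl
  have hA' : ∀ v, A' v = v + (h⁻¹ (P v) - P v) := fun v => rfl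
  have hC : ∀ v, C v = v + P' (h v - v) := fun v => rfl
  have hAA : A ∘ₗ A' = LinearMap.id := by
    apply LinearMap.ext
    intro v
    rw [LinearMap.comp_apply, LinearMap.id_apply, hA, hA', map_add, map_sub, hPh', hPP]
    rw [add_sub_cancel, hinv]
    abel
  have hAC : ∀ v w, polar Q (A' v) w = polar Q v (C w) := by
    intro v w
    rw [hA', hC, polar_add_left, polar_add_right, polar_sub_left, hhadj, hadj, hadj, map_sub,
      polar_sub_right]
  have hdet : LinearMap.det (A ∘ₗ C) = 1 := by
    rw [LinearMap.det_comp, ← det_adjoint hG.nondeg A' C hAC, ← LinearMap.det_comp, hAA,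
      LinearMap.det_id]
  -- the isometry
  have hPP' : ∀ v, P (P' v) = 0 := by
    intro v
    rw [hP, hP', polar_smul_right, hyp.polar_right, smul_zero, zero_smul]
  have hB : ∀ v, (A ∘ₗ C) v = v + (h (P v) - P v) + P' (h v - v) := by
    intro v
    rw [LinearMap.comp_apply, hA, hC, map_add, hPP', add_zero]
    abel
  have hBO : ∀ v, Q ((A ∘ₗ C) v) = Q v := by
    intro v
    set x := h (P v) - P v with hx
    set y := P' (h v - v) with hy
    have hxP : P x = x := by rw [hx, map_sub, hPh, hPP]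
    have hx0 : Q x = 0 := by rw [← hxP]; exact hPs _
    have hy0 : Q y = 0 := hPs' _
    have e1 : polar Q v x = polar Q v (h (P v)) - polar Q v (P v) := by
      rw [hx, polar_sub_right]
    have e2 : polar Q v y = polar Q (P v) (h v) - polar Q (P v) v := by
      rw [hy, ← hadj, polar_sub_right]
    have e3 : polar Q x y = polar Q (h (P v)) (h v) - polar Q (h (P v)) v -
        polar Q (P v) (h v) + polar Q (P v) v := by
      rw [hy, ← hadj, hxP, hx, polar_sub_left, polar_sub_right, polar_sub_right]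
      ring
    have e4 : polar Q (h (P v)) (h v) = polar Q (P v) v := polar_map hhO _ _
    rw [hB, Q_add, Q_add, hx0, hy0, polar_add_left, e1, e2, e3, e4, polar_comm Q v (h (P v)),
      polar_comm Q v (P v)]
    ring
  have hBinj : Function.Injective (A ∘ₗ C) := by
    rw [injective_iff_map_eq_zero]
    intro v hv
    apply hG.nondeg
    intro w
    have : polar Q v w = polar Q ((A ∘ₗ C) v) ((A ∘ₗ C) w) := by
      simp only [QuadraticMap.polar, ← map_add, hBO]
    rw [this, hv, polar_zero_left]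
  let g₀ : V ≃ₗ[F] V := LinearEquiv.ofInjectiveEndo (A ∘ₗ C) hBinj
  have hg₀ : ∀ v, g₀ v = (A ∘ₗ C) v := fun _ => rfl
  have hg₀O : g₀ ∈ O Q := fun v => hBO v
  have hg₀d : LinearMap.det (g₀ : V →ₗ[F] V) = 1 := by
    rw [← hdet]
    rfl
  have hg₀e : ∀ w, polar q u w = 0 → g₀ w = h w := by
    intro w hw
    obtain ⟨a, w₀, rfl, hw₀, hw₀'⟩ : ∃ (a : K) (w₀ : V), w = a • u + w₀ ∧ polar q u w₀ = 0 ∧
        polar q u' w₀ = 0 := by
      refine ⟨polar q u' w, w - polar q u' w • u, by abel, ?_, ?_⟩
      · rw [polar_sub_right, polar_smul_right, hyp.polar_left, hw, smul_zero, sub_zero]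
      · rw [polar_sub_right, polar_smul_right, hyp.pair', smul_eq_mul, mul_one, sub_self]
    have e1 : P (a • u + w₀) = a • u := by
      rw [map_add, hPu, hP, hw₀', zero_smul, add_zero]
    have e2 : P' (h (a • u + w₀) - (a • u + w₀)) = 0 := by
      obtain ⟨d, hd⟩ := hU a
      rw [map_add, hW w₀ hw₀ hw₀', hd, hP', add_sub_add_right_eq_sub, ← sub_smul,
        polar_smul_right, hyp.polar_left, smul_zero, zero_smul]
    rw [hg₀, hB, e1, e2, map_add, hW w₀ hw₀ hw₀']
    abel
  have hρ : ∀ w, polar q u w = 0 → (g₀⁻¹ * h) w = w := by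
    intro w hw
    change g₀⁻¹ (h w) = w
    rw [← hg₀e w hw]
    exact g₀.symm_apply_apply w
  have hρO : g₀⁻¹ * h ∈ O Q := (O Q).mul_mem ((O Q).inv_mem hg₀O) hhO
  have hρR : Rad q u (g₀⁻¹ * h) := by
    refine ⟨fun c => hρ _ ?_, fun w hw => ⟨0, ?_⟩⟩
    · rw [polar_smul_right, hyp.polar_left, smul_zero]
    · rw [hρ w hw, zero_smul, add_zero]
  have hρd := det_of_mem_E hG (hρR.mem_E hT hG hp hρO)
  have e : h = g₀ * (g₀⁻¹ * h) := by group
  have e' : (h : V →ₗ[F] V) = (g₀ : V →ₗ[F] V) ∘ₗ ((g₀⁻¹ * h : V ≃ₗ[F] V) : V →ₗ[F] V) := by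
    conv_lhs => rw [e]
    rfl
  rw [e', LinearMap.det_comp, hg₀d, hρd, one_mul]

/-- If all elements of `H` trivial on `u^⊥` are trivial then `H` is thin at `u`. -/
theorem Over.thin_of_trivial (h : Over q Q H) {p : ℕ} [Fact p.Prime] [CharP F p] (hp : p ≠ 2)
    {u u' : V} (hyp : Hyp q u u')
    (hz : ∀ z ∈ H, (∀ w, polar q u w = 0 → z w = w) → z = 1) : Thin q H u := by
  intro g hg hR
  have hT := h.tr
  have hu := hyp.left
  have hgO := h.leO hg
  set a := g u' - u' with ha
  have hau : polar q u a = 0 := hR.sub_perp hT hgO u'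
  have key : ∀ y, polar q u y = 0 → g y = T q u a y := by
    intro y hy
    have hTy := h.T_mem hp u y
    have hone : (res F (T q u y) * g)⁻¹ * (g * res F (T q u y)) = 1 := by
      apply hz _ (H.mul_mem (H.inv_mem (H.mul_mem hTy hg)) (H.mul_mem hg hTy))
      intro w hw
      have e1 : (g * res F (T q u y)) w = (res F (T q u y) * g) w := by
        obtain ⟨c, hc⟩ := hR.2 w hw
        change g (T q u y w) = T q u y (g w)
        rw [T_apply_perp hu hy hw, map_sub, hR.1, hc, map_add, map_smul, T_apply_self hu hy,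
          T_apply_perp hu hy hw]
        abel
      change (res F (T q u y) * g)⁻¹ ((g * res F (T q u y)) w) = w
      rw [e1]
      exact (res F (T q u y) * g).symm_apply_apply w
    have hcomm : g * res F (T q u y) = res F (T q u y) * g := (inv_mul_eq_one.1 hone).symm
    have h1 : g (T q u y u') = T q u y (g u') := DFunLike.congr_fun hcomm u'
    have h2 : g u' = u' + a := by rw [ha]; abel
    rw [h2, map_add, T_apply_perp hu hy hau, T_apply hu hy, hyp.pair, one_smul, mul_one, map_sub,
      map_sub, map_add, hR.1, hR.1, h2] at h1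
    rw [T_apply_perp hu hau hy, polar_comm q a y]
    have h3 : g y = (u' + a + g y - polar q y u' • u - q y • u) - (u' + a) +
      polar q y u' • u + q y • u := by abel
    rw [h3, h1]
    abel
  refine ⟨a, hau, ?_⟩
  have h1 : (res F (T q u a))⁻¹ * g = 1 := by
    apply hz _ (H.mul_mem (H.inv_mem (h.T_mem hp u a)) hg)
    intro w hw
    change (res F (T q u a))⁻¹ (g w) = w
    rw [key w hw]
    exact (res F (T q u a)).symm_apply_apply w
  exact (inv_mul_eq_one.1 h1).symm

/-- The torus: multiplication by squares on a hyperbolic `K`-plane. -/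
theorem Over.exists_torus (h : Over q Q H) {u u' : V} (hyp : Hyp q u u') {c : K} (hc : c ≠ 0) :
    ∃ t : V ≃ₗ[K] V, res F t ∈ H ∧ t u = c ^ 2 • u ∧ t u' = (c ^ 2)⁻¹ • u' ∧
      ∀ w, polar q u w = 0 → polar q u' w = 0 → t w = w := by
  have key : ∀ a : K, a ≠ 0 → ∃ s : V ≃ₗ[K] V, s ∈ O q ∧ s u = a • u' ∧ s u' = a⁻¹ • u ∧
      ∀ w, polar q u w = 0 → polar q u' w = 0 → s w = w := by
    intro a ha
    have hq : q (u - a • u') = -a := by
      rw [sub_eq_add_neg, ← neg_smul, Q_add, QuadraticMap.map_smul, hyp.left, hyp.right,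
        polar_smul_right, hyp.pair]
      simp
    have hq0 : q (u - a • u') ≠ 0 := by rw [hq]; exact neg_ne_zero.2 ha
    refine ⟨refl q _ hq0, refl_mem_O hq0, ?_, ?_, ?_⟩
    · rw [refl_apply, hq, polar_sub_left, polar_smul_left, hyp.pair', hyp.polar_left, smul_eq_mul]
      match_scalars <;> field_simp <;> ring
    · rw [refl_apply, hq, polar_sub_left, polar_smul_left, hyp.pair, hyp.polar_right, smul_eq_mul]
      match_scalars <;> field_simp <;> ring
    · intro w hw hw'
      rw [refl_apply, polar_sub_left, polar_smul_left, hw, hw', smul_zero, sub_zero, mul_zero,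
        zero_smul, sub_zero]
  obtain ⟨s, hsO, hsu, hsu', hsw⟩ := key 1 one_ne_zero
  obtain ⟨r, hrO, hru, hru', hrw⟩ := key c⁻¹ (inv_ne_zero hc)
  have hst : (r * s) ∈ O q := (O q).mul_mem hrO hsO
  have hst2 : res F ((r * s) * (r * s)) ∈ H := by
    apply h.mem _ _ (res_mem_NK _)
    rw [map_mul]
    exact sq_mem_E h.good (h.tr.res_mem hst)
  have e1 : (r * s) u = c • u := by
    change r (s u) = _
    rw [hsu, one_smul, hru', inv_inv]
  have e2 : (r * s) u' = c⁻¹ • u' := by
    change r (s u') = _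
    rw [hsu', inv_one, one_smul, hru]
  have e3 : ∀ w, polar q u w = 0 → polar q u' w = 0 → (r * s) w = w := by
    intro w hw hw'
    change r (s w) = _
    rw [hsw w hw hw', hrw w hw hw']
  refine ⟨(r * s) * (r * s), hst2, ?_, ?_, ?_⟩
  · change (r * s) ((r * s) u) = _
    rw [e1, map_smul, e1, smul_smul, pow_two]
  · change (r * s) ((r * s) u') = _
    rw [e2, map_smul, e2, smul_smul, pow_two, mul_inv]
  · intro w hw hw'
    change (r * s) ((r * s) w) = _
    rw [e3 w hw hw', e3 w hw hw']

end Cfsg.Agent.H923.KF
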